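import Mathlib
import Cfsg.Agent.H28.GCtl1
import Cfsg.Agent.H28.Model6
import Cfsg.Agent.H28.FusInv

/-!
# Normal subsystems and central quotients of constrained fusion systems are constrained
-/

set_option autoImplicit false
set_option linter.all false
open Cfsg Cfsg.FusionSystem

namespace Cfsg.Agent.H13

open Cfsg.Agent.H28
open Cfsg.Agent

universe u v w

section
variable {Ω : Type u} [Group Ω] {S T : Subgroup Ω} {F : FusionSystem S} {E : FusionSystem T}
  {P Q R : Subgroup Ω} {f g : Ω → Ω} {x y z s t : Ω} {p : ℕ}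

/-- An element acting trivially on `R` and on `Q/R` lies in the core. -/
theorem chain_stab_le [Fact p.Prime] [Finite S] (hS : IsPGroup p S) {G : Type v} [Group G] {ι : S →* G}
    (hM : F.IsModel p G ι) (hQ : F.IsNormal Q) (hQc : F.IsCentric Q) (hR : F.IsNormal R) (hRQ : R ≤ Q)
    (hs : s ∈ S) (h1 : ∀ q ∈ Q, q⁻¹ * (s * q * s⁻¹) ∈ R) (h2 : ∀ r ∈ R, s * r = r * s) : s ∈ F.core := by
  haveI := hM.1
  have hQS := hQ.1
  have hRS := hR.1
  let N : Subgroup G :=
    { carrier := {g | (∀ q ∈ Q, ∃ r ∈ R, g * tf ι q * g⁻¹ = tf ι q * tf ι r) ∧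
        ∀ r ∈ R, g * tf ι r = tf ι r * g}
      one_mem' := ⟨fun q hq => ⟨1, R.one_mem, by rw [tf_one]; group⟩, fun r hr => by simp⟩
      mul_mem' := by
        rintro a b ⟨ha1, ha2⟩ ⟨hb1, hb2⟩
        refine ⟨fun q hq => ?_, fun r hr => ?_⟩
        · obtain ⟨r, hr, e1⟩ := hb1 q hq
          obtain ⟨r', hr', e2⟩ := ha1 q hq
          refine ⟨r' * r, R.mul_mem hr' hr, ?_⟩
          rw [tf_mul (hRS hr') (hRS hr)]
          calc a * b * tf ι q * (a * b)⁻¹ = a * (b * tf ι q * b⁻¹) * a⁻¹ := by group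
            _ = a * (tf ι q * tf ι r) * a⁻¹ := by rw [e1]
            _ = (a * tf ι q * a⁻¹) * (a * tf ι r * a⁻¹) := by group
            _ = tf ι q * (tf ι r' * tf ι r) := by rw [e2, ha2 r hr]; group
        · rw [mul_assoc, hb2 r hr, ← mul_assoc, ha2 r hr, mul_assoc]
      inv_mem' := by
        rintro a ⟨ha1, ha2⟩
        have h3 : ∀ r ∈ R, a⁻¹ * tf ι r = tf ι r * a⁻¹ := fun r hr => by
          have := ha2 r hr
          calc a⁻¹ * tf ι r = a⁻¹ * (tf ι r * a) * a⁻¹ := by group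
            _ = a⁻¹ * (a * tf ι r) * a⁻¹ := by rw [this]
            _ = tf ι r * a⁻¹ := by group
        refine ⟨fun q hq => ?_, h3⟩
        obtain ⟨r, hr, e1⟩ := ha1 q hq
        refine ⟨r⁻¹, R.inv_mem hr, ?_⟩
        rw [tf_inv (hRS hr)]
        have h4 : tf ι q = a⁻¹ * tf ι q * a * (a⁻¹ * tf ι r * a) := by
          calc tf ι q = a⁻¹ * (a * tf ι q * a⁻¹) * a := by group
            _ = a⁻¹ * (tf ι q * tf ι r) * a := by rw [e1]
            _ = a⁻¹ * tf ι q * a * (a⁻¹ * tf ι r * a) := by group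
        rw [h3 r hr, inv_mul_cancel_right] at h4
        rw [inv_inv, eq_mul_inv_iff_mul_eq]
        exact h4.symm }
  have hNn : N.Normal := by
    refine ⟨fun a ha u => ?_⟩
    obtain ⟨ha1, ha2⟩ := ha
    refine ⟨fun q hq => ?_, fun r hr => ?_⟩
    · obtain ⟨q', hq', e1⟩ := model_normal hM hQ u⁻¹ hq
      obtain ⟨r, hr, e2⟩ := ha1 q' hq'
      obtain ⟨r', hr', e3⟩ := model_normal hM hR u hr
      refine ⟨r', hr', ?_⟩
      rw [inv_inv] at e1
      calc u * a * u⁻¹ * tf ι q * (u * a * u⁻¹)⁻¹ = u * (a * (u⁻¹ * tf ι q * u) * a⁻¹) * u⁻¹ := by group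
        _ = u * (tf ι q' * tf ι r) * u⁻¹ := by rw [e1, e2]
        _ = u * (u⁻¹ * tf ι q * u) * tf ι r * u⁻¹ := by rw [← e1]; group
        _ = tf ι q * (u * tf ι r * u⁻¹) := by group
        _ = tf ι q * tf ι r' := by rw [e3]
    · obtain ⟨r', hr', e1⟩ := model_normal hM hR u⁻¹ hr
      rw [inv_inv] at e1
      have e2 : tf ι r = u * tf ι r' * u⁻¹ := by rw [← e1]; group
      rw [e2]
      calc u * a * u⁻¹ * (u * tf ι r' * u⁻¹) = u * (a * tf ι r') * u⁻¹ := by group
        _ = u * (tf ι r' * a) * u⁻¹ := by rw [ha2 r' hr']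
        _ = u * tf ι r' * u⁻¹ * (u * a * u⁻¹) := by group
  have hNp : IsPGroup p N := by
    have hpow : ∀ a ∈ N, ∀ q ∈ Q, ∃ r ∈ R, ∀ n : ℕ, a ^ n * tf ι q * (a ^ n)⁻¹ = tf ι q * tf ι r ^ n := by
      rintro a ⟨ha1, ha2⟩ q hq
      obtain ⟨r, hr, e1⟩ := ha1 q hq
      refine ⟨r, hr, fun n => ?_⟩
      induction n with
      | zero => simp
      | succ n ih =>
        have e2 : a * tf ι r ^ n = tf ι r ^ n * a := (Commute.pow_right (ha2 r hr : Commute a (tf ι r)) n).eq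
        calc a ^ (n + 1) * tf ι q * (a ^ (n + 1))⁻¹ = a * (a ^ n * tf ι q * (a ^ n)⁻¹) * a⁻¹ := by
              rw [pow_succ']; group
          _ = a * (tf ι q * tf ι r ^ n) * a⁻¹ := by rw [ih]
          _ = (a * tf ι q * a⁻¹) * (a * tf ι r ^ n * a⁻¹) := by group
          _ = tf ι q * tf ι r * tf ι r ^ n := by rw [e1, e2]; group
          _ = tf ι q * tf ι r ^ (n + 1) := by rw [pow_succ', mul_assoc]
    haveI : Finite R := finite_of_le hRS
    have hRp : IsPGroup p R := isPGroup_of_le hS hRS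
    obtain ⟨k, hk⟩ := IsPGroup.iff_card.1 hRp
    rw [IsPGroup]
    rintro ⟨a, ha⟩
    have h3 : a ^ p ^ k ∈ ι.range := by
      suffices h : ∀ q ∈ Q, a ^ p ^ k * tf ι q = tf ι q * a ^ p ^ k by
        obtain ⟨z, hz, e⟩ := model_centralizer hM hQ hQc _ h
        rw [← e]; exact tf_mem_range (hQS hz)
      intro q hq
      obtain ⟨r, hr, e1⟩ := hpow a ha q hq
      have e2 : tf ι r ^ p ^ k = 1 := by
        have e3 : r ^ p ^ k = 1 := by
          rw [← hk]
          exact congrArg Subtype.val (pow_card_eq_one' (x := (⟨r, hr⟩ : R)))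
        rw [tf_apply _ (hRS hr), ← map_pow]
        have : (⟨r, hRS hr⟩ : S) ^ p ^ k = 1 := Subtype.ext e3
        rw [this, map_one]
      have e4 := e1 (p ^ k)
      rw [e2, mul_one] at e4
      rw [mul_inv_eq_iff_eq_mul] at e4
      exact e4
    have hrp : IsPGroup p ι.range := hS.of_surjective ι.rangeRestrict ι.rangeRestrict_surjective
    obtain ⟨j, hj⟩ := isPGroup_pow_one hrp h3
    refine ⟨k + j, Subtype.ext ?_⟩
    show a ^ p ^ (k + j) = 1
    rw [pow_add, pow_mul, hj]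
  have hNle : N ≤ ι.range := (le_pCore hNn hNp).trans (pCore_le_range hM)
  refine le_core (normal_preimage_of_normal hM.2.1 hNn hNle) (mem_preimageAlong.2 ⟨hs, ?_⟩)
  refine ⟨fun q hq => ⟨q⁻¹ * (s * q * s⁻¹), h1 q hq, ?_⟩, fun r hr => ?_⟩
  · rw [← tf_conj hs (hQS hq), ← tf_mul (hQS hq) (hRS (h1 q hq)), mul_inv_cancel_left]
  · rw [← tf_mul hs (hRS hr), h2 r hr, tf_mul (hRS hr) hs]

/-- A normal subsystem of a constrained system is constrained. -/
theorem constrained_of_normalIn [Fact p.Prime] [Finite S] (hS : IsPGroup p S) (hF : F.IsConstrained p)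
    (hE : E.IsNormalIn F p) : E.IsConstrained p := by
  obtain ⟨hFs, Q', hQ'n, hQ'c⟩ := hF
  obtain ⟨G, _, ι, hM⟩ := exists_model hS hFs hQ'n hQ'c
  have hQ : F.IsNormal F.core := core_normal
  have hQc : F.IsCentric F.core := centric_mono hQ'c (le_core hQ'n) hQ.1
  obtain ⟨⟨hEs, -, hinv⟩, -⟩ := hE
  obtain ⟨hsub, hTsc, -, -⟩ := invariant_iff.1 hinv
  have hsub' := subsystem_iff.1 hsub
  have hTS : T ≤ S := hTsc.1
  haveI : Finite T := finite_of_le hTS
  have hTp := isPGroup_of_le hS hTS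
  set R : Subgroup Ω := F.core ⊓ T with hRdef
  have hRQ : R ≤ F.core := inf_le_left
  have hRT : R ≤ T := inf_le_right
  have hRS : R ≤ S := hRT.trans hTS
  haveI : Finite R := finite_of_le hRS
  have hRsc : F.StronglyClosed R := by
    rw [stronglyClosed_iff]
    exact ⟨hRS, fun X f hX hf x hx => ⟨sc_apply (normal_stronglyClosed hQ) hf hx (hRQ (hX hx)),
      sc_apply hTsc hf hx (hRT (hX hx))⟩⟩
  have hlcs : ∀ n, F.StronglyClosed (R.lowerCentralSeries n) := by
    intro n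
    have hle : R.lowerCentralSeries n ≤ R := Subgroup.lowerCentralSeries_le_self R n
    rw [stronglyClosed_iff]
    refine ⟨hle.trans hRS, fun X f hX hf x hx => ?_⟩
    obtain ⟨g, hg, h1, h2⟩ := (isNormal_iff.1 hQ).2 X f hf
    have hRle : R ≤ X ⊔ F.core := hRQ.trans le_sup_right
    have himg : img R g = R := sc_img_eq hRsc hg hRle
    obtain ⟨α, hα, h3⟩ := (hg.mono hRle).exists_aut himg
    have h4 := img_characteristic (lcs_characteristic R n) hle α
    rw [← h1 x hx, ← h3 x (hle (hX hx))]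
    have h5 : autFun α x ∈ img (R.lowerCentralSeries n) (autFun α) := mem_img_of_mem (hX hx)
    rwa [h4] at h5
  have hRnF : F.IsNormal R := normal_of_lcs hS hFs hRS hlcs
  have hRnE : E.IsNormal R := by
    refine normal_of_lcs hTp hEs hRT fun n => ?_
    have hle : R.lowerCentralSeries n ≤ R := Subgroup.lowerCentralSeries_le_self R n
    rw [stronglyClosed_iff]
    exact ⟨hle.trans hRT, fun X f hX hf x hx => (stronglyClosed_iff.1 (hlcs n)).2 X f hX (hsub' X f hf) x hx⟩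
  refine ⟨hEs, R, hRnE, hRT, fun X hX => ?_⟩
  obtain ⟨f, hf, rfl⟩ := isConj_iff.1 hX
  rw [sc_img_eq (normal_stronglyClosed hRnE) hf le_rfl]
  intro s hs
  obtain ⟨hsT, hsc⟩ := mem_centralizerIn.1 hs
  refine ⟨chain_stab_le hS hM hQ hQc hRnF hRQ (hTS hsT) (fun q hq => ⟨?_, ?_⟩) (fun r hr => ?_), hsT⟩
  · exact F.core.mul_mem (F.core.inv_mem hq) (sc_conj (normal_stronglyClosed hQ) (hTS hsT) hq)
  · have h1 := sc_conj hTsc (hQ.1 (F.core.inv_mem hq)) hsT
    rw [inv_inv] at h1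
    have : q⁻¹ * (s * q * s⁻¹) = q⁻¹ * s * q * s⁻¹ := by group
    rw [this]
    exact T.mul_mem h1 (T.inv_mem hsT)
  · exact hsc r hr

theorem central_isNormal [Finite S] (hZ : F.IsCentral Q) : F.IsNormal Q := by
  rw [isCentral_iff] at hZ
  rw [isNormal_iff]
  refine ⟨hZ.1, fun P f hf => ?_⟩
  obtain ⟨g, hg, h1, h2⟩ := hZ.2 P f hf
  exact ⟨g, hg, h1, img_id' h2⟩

/-- The image of a normal subgroup above the kernel is normal in the factor system. -/
theorem factor_isNormal {Ω' : Type v} [Group Ω'] {S' : Subgroup Ω'} {E' : FusionSystem S'} {θ : S →* Ω'}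
    [Finite S] (hT : F.StronglyClosed T) (hE : F.IsFactorSystem T θ E') (hQ : F.IsNormal Q) (hTQ : T ≤ Q) :
    E'.IsNormal (imageAlong θ Q) := by
  have hr := hE.2.2.1
  have hQS := hQ.1
  have hQ'S : imageAlong θ Q ≤ S' := by rw [← hr]; exact imageAlong_le_range
  have hpre := factor_preimage_image hE hQS hTQ
  rw [isNormal_iff]
  refine ⟨hQ'S, fun P' f' hf' => ?_⟩
  obtain ⟨hP'S, f, hf, h1⟩ := (factor_mor_iff hE).1 hf'
  obtain ⟨g, hg, h2, h3⟩ := (isNormal_iff.1 hQ).2 _ f hf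
  have hTle : T ≤ preimageAlong θ P' ⊔ Q := hTQ.trans le_sup_right
  obtain ⟨g', hg', h4⟩ := factor_induced hE hT hg hTle
  have h5 : imageAlong θ (preimageAlong θ P' ⊔ Q) = P' ⊔ imageAlong θ Q := by
    conv_lhs => rw [← hpre]
    rw [sup_preimage hE hP'S hQ'S, imageAlong_preimageAlong hr (sup_le hP'S hQ'S)]
  rw [h5] at hg'
  refine ⟨g', hg', fun y hy => ?_, ?_⟩
  · obtain ⟨x, hx, rfl⟩ := exists_preimage hr hP'S hy
    rw [h4 x (le_sup_left (b := Q) hx), h2 x hx, h1 x hx]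
  · apply le_antisymm
    · rw [img_le_iff]
      intro y hy
      obtain ⟨x, hxS, hx, rfl⟩ := mem_imageAlong.1 hy
      rw [h4 x (le_sup_right (a := preimageAlong θ P') hx)]
      refine tf_mem_imageAlong hQS ?_
      have h6 : g x ∈ img Q g := mem_img_of_mem hx
      rwa [h3] at h6
    · intro y hy
      obtain ⟨x, hxS, hx, rfl⟩ := mem_imageAlong.1 hy
      rw [← h3] at hx
      obtain ⟨u, hu, rfl⟩ := (hg.mono (le_sup_right (a := preimageAlong θ P') (b := Q))).mem_img.1 hx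
      rw [← h4 u (le_sup_right (a := preimageAlong θ P') hu)]
      exact mem_img_of_mem (tf_mem_imageAlong hQS hu)

/-- The factor system of a constrained system modulo a central subgroup is constrained. -/
theorem constrained_factor {Ω' : Type v} [Group Ω'] {S' : Subgroup Ω'} {E' : FusionSystem S'} {θ : S →* Ω'}
    [Fact p.Prime] [Finite S] (hS : IsPGroup p S) (hF : F.IsConstrained p) {Z : Subgroup Ω}
    (hZ : F.IsCentral Z) (hE : F.IsFactorSystem Z θ E') : E'.IsConstrained p := by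
  obtain ⟨hFs, Q', hQ'n, hQ'c⟩ := hF
  obtain ⟨G, _, ι, hM⟩ := exists_model hS hFs hQ'n hQ'c
  have hQ : F.IsNormal F.core := core_normal
  have hQc : F.IsCentric F.core := centric_mono hQ'c (le_core hQ'n) hQ.1
  have hZn := central_isNormal hZ
  have hZQ : Z ≤ F.core := le_core hZn
  have hZsc := normal_stronglyClosed hZn
  have hr := hE.2.2.1
  have hE's : E'.IsSaturated p := surj_saturated hS hFs (factor_surj hS hFs hZsc hE)
  have hn' := factor_isNormal hZsc hE hQ hZQ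
  haveI : Finite S' := by
    rw [← hr]; exact Finite.of_surjective _ θ.rangeRestrict_surjective
  refine ⟨hE's, _, hn', hn'.1, fun X hX => ?_⟩
  obtain ⟨f, hf, rfl⟩ := isConj_iff.1 hX
  rw [sc_img_eq (normal_stronglyClosed hn') hf le_rfl]
  intro s' hs'
  obtain ⟨hs'S, hs'c⟩ := mem_centralizerIn.1 hs'
  obtain ⟨s, hs, rfl⟩ := exists_tf_eq hr hs'S
  refine tf_mem_imageAlong hQ.1 ?_
  refine chain_stab_le hS hM hQ hQc hZn hZQ hs (fun q hq => ?_) fun r hr => ?_
  · have h1 := hs'c _ (tf_mem_imageAlong hQ.1 hq)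
    rw [← tf_mul hs (hQ.1 hq), ← tf_mul (hQ.1 hq) hs, factor_eq hE (S.mul_mem hs (hQ.1 hq))
      (S.mul_mem (hQ.1 hq) hs)] at h1
    have h2 := sc_conj hZsc hs (Z.inv_mem h1)
    have : q⁻¹ * (s * q * s⁻¹) = s * ((s * q)⁻¹ * (q * s))⁻¹ * s⁻¹ := by group
    rw [this]
    exact h2
  · have h1 := (isCentral_iff.1 hZ).2 S (fun x => s * x * s⁻¹) (mor_conj le_rfl hs)
    obtain ⟨g, hg, h2, h3⟩ := h1
    have h4 := h2 r (hZ.1 hr)
    rw [h3 r hr] at h4
    calc s * r = s * r * s⁻¹ * s := by group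
      _ = r * s := by rw [← h4]

end

end Cfsg.Agent.H13
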