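import Cfsg.Agent.H13.FusSolv
import Cfsg.Agent.H28.FusInv

/-!
# Solvability of fusion systems and normal subsystems
-/

set_option autoImplicit false
set_option linter.all false
open Cfsg
open Cfsg.Agent.H28 Cfsg.FusionSystem

namespace Cfsg.Agent.H13

open Cfsg.Agent
open scoped commutatorElement

universe u v

variable {Ω : Type u} [Group Ω] {S T : Subgroup Ω} {p : ℕ} {F : Cfsg.FusionSystem S} {E : Cfsg.FusionSystem T}

theorem SolvChain.self : SolvChain F S :=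
  ⟨0, fun _ => S, rfl, fun _ _ => rfl, fun _ _ _ => le_rfl, fun _ => sc_self, fun i hi => by omega⟩

theorem SolvChain.cons {R R' : Subgroup Ω} (hR : F.StronglyClosed R) (hle : R ≤ R')
    (hc : ⁅R', R'⁆ ≤ R) (h : SolvChain F R') : SolvChain F R := by
  obtain ⟨n, T, hT0, hTn, hTm, hTs, hTc⟩ := h
  refine ⟨n + 1, fun i => if i = 0 then R else T (i - 1), by simp, ?_, ?_, ?_, ?_⟩
  · intro i hi
    have : i ≠ 0 := by omega
    simp only [this, if_false]
    exact hTn _ (by omega)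
  · intro i j hij
    by_cases hi : i = 0
    · simp only [hi, if_true]
      by_cases hj : j = 0
      · simp [hj]
      · simp only [hj, if_false]
        exact hle.trans (hT0 ▸ hTm (Nat.zero_le _))
    · have hj : j ≠ 0 := by omega
      simp only [hi, hj, if_false]
      exact hTm (by omega)
  · intro i
    by_cases hi : i = 0
    · simp only [hi, if_true]; exact hR
    · simp only [hi, if_false]; exact hTs _
  · intro i hi
    by_cases hi0 : i = 0
    · subst hi0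
      simp only [zero_add, one_ne_zero, if_false, if_true, Nat.sub_self, hT0]
      exact hc
    · have h3 : i + 1 ≠ 0 := by omega
      simp only [hi0, h3, if_false]
      have h4 := hTc (i - 1) (by omega)
      have h5 : i - 1 + 1 = i := by omega
      rw [h5] at h4
      simpa using h4

/-- The supremum of a family of normal subgroups is normal. -/
theorem isNormal_sSup [Finite S] {X : Set (Subgroup Ω)} (h : ∀ Q ∈ X, F.IsNormal Q) :
    F.IsNormal (sSup X) := by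
  have h1 : sSup {Q | F.IsNormal Q ∧ Q ≤ sSup X} ∈ {Q | F.IsNormal Q ∧ Q ≤ sSup X} :=
    sSup_mem_of_finite (S := S) ⟨isNormal_bot, bot_le⟩ (fun _ h => h.1.1)
      (fun _ h _ h' => ⟨isNormal_sup h.1 h'.1, sup_le h.2 h'.2⟩)
  have h2 : sSup {Q | F.IsNormal Q ∧ Q ≤ sSup X} = sSup X :=
    le_antisymm h1.2 (sSup_le_sSup fun Q hQ => ⟨h Q hQ, le_sSup hQ⟩)
  rw [← h2]; exact h1.1

theorem commutator_img_le {P : Subgroup Ω} {f : Ω → Ω} (hf : Mor F P f) {U : Subgroup Ω} (hU : U ≤ P)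
    {V : Subgroup Ω} (h : ⁅U, U⁆ ≤ V) (hV : ∀ x ∈ V, f x ∈ V) : ⁅img U f, img U f⁆ ≤ V := by
  rw [Subgroup.commutator_le]
  intro a ha b hb
  obtain ⟨x, hx, rfl⟩ := (hf.mono hU).mem_img.1 ha
  obtain ⟨y, hy, rfl⟩ := (hf.mono hU).mem_img.1 hb
  have h1 : ⁅x, y⁆ ∈ V := h (Subgroup.commutator_mem_commutator hx hy)
  have h2 := hV _ h1
  have hx' := hU hx
  have hy' := hU hy
  have : ⁅f x, f y⁆ = f ⁅x, y⁆ := by
    rw [commutatorElement_def, commutatorElement_def,
      hf.mul (P.mul_mem (P.mul_mem hx' hy') (P.inv_mem hx')) (P.inv_mem hy'),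
      hf.mul (P.mul_mem hx' hy') (P.inv_mem hx'), hf.mul hx' hy', hf.inv hx', hf.inv hy']
  rw [this]; exact h2

/-- A strongly closed subgroup of an invariant subsystem invariant under the automizer is strongly closed. -/
theorem sc_of_inv (hinv : E.IsInvariantIn F) {A : Subgroup Ω} (hA : E.StronglyClosed A)
    (h : ∀ α ∈ F.autGroup T, ∀ x ∈ A, autFun α x ∈ A) : F.StronglyClosed A := by
  obtain ⟨hsub, hTsc, -, hfr⟩ := invariant_iff.1 hinv
  rw [stronglyClosed_iff]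
  refine ⟨hA.1.trans hTsc.1, fun P f hP hf x hx => ?_⟩
  obtain ⟨α, hα, g, hg, e⟩ := hfr P f (hP.trans hA.1) hf
  rw [e x hx]
  exact h α hα _ ((stronglyClosed_iff.1 hA).2 P g hP hg x hx)

/-- Transport of strong closure along the automizer. -/
theorem sc_img_aut [Finite T] (hinv : E.IsInvariantIn F) {A : Subgroup Ω} (hA : E.StronglyClosed A)
    {α : MulAut T} (hα : α ∈ F.autGroup T) : E.StronglyClosed (img A (autFun α)) := by
  obtain ⟨hsub, hTsc, hin, -⟩ := invariant_iff.1 hinv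
  have hTS := hTsc.1
  have ha : Mor F T (autFun α) := mor_autFun hTS hα
  have hb : Mor F T (autFun α⁻¹) := mor_autFun hTS (Subgroup.inv_mem _ hα)
  rw [stronglyClosed_iff]
  have hle : img A (autFun α) ≤ T := by rw [img_le_iff]; exact fun x hx => autFun_mem _ (hA.1 hx)
  refine ⟨hle, fun P f hP hf x hx => ?_⟩
  obtain ⟨g, hg, e⟩ := hin P f hf α⁻¹ (Subgroup.inv_mem _ hα)
  have hPT : P ≤ T := hP.trans hle
  have hinvol : ∀ y ∈ T, autFun α⁻¹ (autFun α y) = y := fun y hy => by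
    rw [← autFun_mul _ _ hy, inv_mul_cancel, autFun_one hy]
  have hinvol' : ∀ y ∈ T, autFun α (autFun α⁻¹ y) = y := fun y hy => by
    rw [← autFun_mul _ _ hy, mul_inv_cancel, autFun_one hy]
  have hPA : ∀ y ∈ P, autFun α⁻¹ y ∈ A := by
    intro y hy
    obtain ⟨u, hu, rfl⟩ := (ha.mono hA.1).mem_img.1 (hP hy)
    rw [hinvol u (hA.1 hu)]; exact hu
  have h1 : g (autFun α⁻¹ x) ∈ A := by
    refine (stronglyClosed_iff.1 hA).2 _ g ?_ hg _ (mem_img_of_mem hx)
    rw [img_le_iff]; exact hPA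
  rw [e x hx] at h1
  have h2 : autFun α (autFun α⁻¹ (f x)) ∈ img A (autFun α) := mem_img_of_mem h1
  rwa [hinvol' _ (hf.mem hx)] at h2

theorem exists_inv_step [Fact p.Prime] [Finite S] (hS : IsPGroup p S) (hF : F.IsSaturated p)
    (hinv : E.IsInvariantIn F) (hEs : E.IsSaturated p) (h : E.IsSolvableSystem) {U : Subgroup Ω}
    (hU : F.StronglyClosed U) (hUT : U ≤ T) (hne : U ≠ T) :
    ∃ A : Subgroup Ω, F.StronglyClosed A ∧ A ≤ T ∧ U < A ∧ ⁅A, A⁆ ≤ U := by
  obtain ⟨hsub, hTsc, hin, hfr⟩ := invariant_iff.1 hinv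
  have hTS := hTsc.1
  haveI : Finite T := finite_of_le hTS
  have hTp := isPGroup_of_le hS hTS
  have hUE : E.StronglyClosed U := by
    rw [stronglyClosed_iff]
    exact ⟨hUT, fun P f hP hf x hx => (stronglyClosed_iff.1 hU).2 P f hP (subsystem_iff.1 hsub P f hf) x hx⟩
  obtain ⟨A₀, hA₀, hlt, hc⟩ := exists_sc_step hTp hEs h hUE hne
  have hn : (U.subgroupOf T).Normal := by
    refine ⟨fun x hx s => ?_⟩
    have h1 : (s : Ω) * (x : Ω) * (s : Ω)⁻¹ ∈ U := sc_conj hUE s.2 (Subgroup.mem_subgroupOf.1 hx)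
    exact h1
  let θ : T →* T ⧸ U.subgroupOf T := QuotientGroup.mk' (U.subgroupOf T)
  have hk : ∀ x ∈ T, tf θ x = 1 ↔ x ∈ U := by
    intro x hx
    rw [tf_apply θ hx]
    show (QuotientGroup.mk' (U.subgroupOf T)) ⟨x, hx⟩ = 1 ↔ _
    rw [QuotientGroup.mk'_apply, QuotientGroup.eq_one_iff]
    rfl
  have hr : θ.range = ⊤ := MonoidHom.range_eq_top.2 (QuotientGroup.mk'_surjective _)
  obtain ⟨D, hD⟩ := exists_factor hUE θ hk hr
  have hDs : D.IsSaturated p := factor_saturated hTp hEs hUE hD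
  have hsurj := factor_surj hTp hEs hUE hD
  have hDp : IsPGroup p (⊤ : Subgroup (T ⧸ U.subgroupOf T)) :=
    (hTp.to_quotient (U.subgroupOf T)).to_subgroup ⊤
  have hcom : ∀ x ∈ T, ∀ y ∈ T, tf θ ⁅x, y⁆ = ⁅tf θ x, tf θ y⁆ := by
    intro x hx y hy
    rw [commutatorElement_def, tf_mul (T.mul_mem (T.mul_mem hx hy) (T.inv_mem hx)) (T.inv_mem hy),
      tf_mul (T.mul_mem hx hy) (T.inv_mem hx), tf_mul hx hy, tf_inv hx, tf_inv hy, commutatorElement_def]
  have hcomT : ∀ x ∈ T, ∀ y ∈ T, ⁅x, y⁆ ∈ T := fun x hx y hy => by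
    rw [commutatorElement_def]
    exact T.mul_mem (T.mul_mem (T.mul_mem hx hy) (T.inv_mem hx)) (T.inv_mem hy)
  let 𝒴 : Set (Subgroup (T ⧸ U.subgroupOf T)) := {Y | D.StronglyClosed Y ∧ ∀ a ∈ Y, ∀ b ∈ Y, a * b = b * a}
  have hYn : ∀ Y ∈ 𝒴, D.IsNormal Y := fun Y hY => normal_of_sc_abelian hDp hDs hY.1
    ⟨⟨fun a b => Subtype.ext (hY.2 a a.2 b b.2)⟩⟩
  have h𝒳 : ∀ X : Subgroup Ω, E.StronglyClosed X → U ≤ X → ⁅X, X⁆ ≤ U → imageAlong θ X ∈ 𝒴 := by
    intro X hX hUX hXc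
    refine ⟨image_sc hD hX hUX, ?_⟩
    intro a ha b hb
    obtain ⟨x, hxT, hx, rfl⟩ := mem_imageAlong.1 ha
    obtain ⟨y, hyT, hy, rfl⟩ := mem_imageAlong.1 hb
    have h1 := (hk _ (hcomT x hxT y hyT)).2 (hXc (Subgroup.commutator_mem_commutator hx hy))
    rw [hcom x hxT y hyT] at h1
    exact commutatorElement_eq_one_iff_mul_comm.1 h1
  set B : Subgroup (T ⧸ U.subgroupOf T) := sSup 𝒴 with hB
  have hBn : D.IsNormal B := isNormal_sSup hYn
  have hUinv : ∀ α ∈ F.autGroup T, ∀ x ∈ U, autFun α x ∈ U := fun α hα x hx =>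
    sc_apply hU (mor_autFun hTS hα) (hUT hx) hx
  -- invariance of `B`
  have hBinv : ∀ α ∈ F.autGroup T, ∀ b ∈ T, tf θ b ∈ B → tf θ (autFun α b) ∈ B := by
    intro α hα
    have ha : Mor F T (autFun α) := mor_autFun hTS hα
    let H : Subgroup Ω :=
      { carrier := {b | b ∈ T ∧ tf θ (autFun α b) ∈ B}
        one_mem' := ⟨T.one_mem, by rw [ha.one, tf_one]; exact B.one_mem⟩
        mul_mem' := fun {a b} h1 h2 => ⟨T.mul_mem h1.1 h2.1, by
          rw [ha.mul h1.1 h2.1, tf_mul (autFun_mem _ h1.1) (autFun_mem _ h2.1)]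
          exact B.mul_mem h1.2 h2.2⟩
        inv_mem' := fun {a} h1 => ⟨T.inv_mem h1.1, by
          rw [ha.inv h1.1, tf_inv (autFun_mem _ h1.1)]
          exact B.inv_mem h1.2⟩ }
    have hHT : H ≤ T := fun x hx => hx.1
    have hBH : B ≤ imageAlong θ H := by
      refine sSup_le fun Y hY => ?_
      intro y hy
      obtain ⟨x, hx, rfl⟩ := exists_tf_eq hr (Subgroup.mem_top y)
      refine tf_mem_imageAlong hHT ⟨hx, ?_⟩
      have hX := preimage_sc hsurj.1 hY.1
      have hUX : U ≤ preimageAlong θ Y := factor_le_preimage hD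
      have hXc : ⁅preimageAlong θ Y, preimageAlong θ Y⁆ ≤ U := by
        rw [Subgroup.commutator_le]
        intro a ha b hb
        obtain ⟨ha1, ha2⟩ := mem_preimageAlong.1 ha
        obtain ⟨hb1, hb2⟩ := mem_preimageAlong.1 hb
        rw [← hk _ (hcomT a ha1 b hb1), hcom a ha1 b hb1]
        exact commutatorElement_eq_one_iff_mul_comm.2 (hY.2 _ ha2 _ hb2)
      have h1 := sc_img_aut hinv hX hα
      have h2 : U ≤ img (preimageAlong θ Y) (autFun α) := by
        intro u hu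
        have h3 : autFun α⁻¹ u ∈ U := hUinv _ (Subgroup.inv_mem _ hα) u hu
        have h4 : autFun α (autFun α⁻¹ u) = u := by
          rw [← autFun_mul _ _ (hUT hu), mul_inv_cancel, autFun_one (hUT hu)]
        rw [← h4]; exact mem_img_of_mem (hUX h3)
      have h3 := commutator_img_le ha preimageAlong_le hXc (hUinv α hα)
      have h4 : imageAlong θ (img (preimageAlong θ Y) (autFun α)) ≤ B := le_sSup (h𝒳 _ h1 h2 h3)
      exact h4 (tf_mem_imageAlong h1.1 (mem_img_of_mem (mem_preimageAlong.2 ⟨hx, hy⟩)))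
    intro b hb hbB
    obtain ⟨c, hcT, hc, e⟩ := mem_imageAlong.1 (hBH hbB)
    have h1 : c⁻¹ * b ∈ U := by
      rw [← hk _ (T.mul_mem (T.inv_mem hcT) hb), tf_mul (T.inv_mem hcT) hb, tf_inv hcT, e, inv_mul_cancel]
    have h2 := hUinv α hα _ h1
    have h3 : autFun α b = autFun α c * autFun α (c⁻¹ * b) := by
      rw [← ha.mul hcT (T.mul_mem (T.inv_mem hcT) hb), mul_inv_cancel_left]
    rw [h3, tf_mul (autFun_mem _ hcT) (hUT h2), (hk _ (hUT h2)).2 h2, mul_one]
    exact hc.2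
  -- the centre of `B`
  let Z : Subgroup (T ⧸ U.subgroupOf T) := (Subgroup.center B).map B.subtype
  have hZmem : ∀ z, z ∈ Z ↔ z ∈ B ∧ ∀ b ∈ B, b * z = z * b := by
    intro z
    constructor
    · rintro ⟨w, hw, rfl⟩
      exact ⟨w.2, fun b hb => congrArg Subtype.val (Subgroup.mem_center_iff.1 hw ⟨b, hb⟩)⟩
    · rintro ⟨hz, h1⟩
      exact ⟨⟨z, hz⟩, Subgroup.mem_center_iff.2 fun b => Subtype.ext (h1 b b.2), rfl⟩
  have hZB : Z ≤ B := fun z hz => ((hZmem z).1 hz).1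
  have hZof : Z.subgroupOf B = Subgroup.center B := by
    ext x
    rw [Subgroup.mem_subgroupOf, hZmem, Subgroup.mem_center_iff]
    exact ⟨fun h b => Subtype.ext (h.2 b b.2), fun h => ⟨x.2, fun b hb => congrArg Subtype.val (h ⟨b, hb⟩)⟩⟩
  have hZn : D.IsNormal Z := by
    apply normal_of_characteristic hBn hZB
    rw [hZof]; infer_instance
  have hBne : B ≠ ⊥ := by
    intro h0
    have h1 : imageAlong θ A₀ ≤ B := le_sSup (h𝒳 A₀ hA₀ hlt.le hc)
    rw [h0, le_bot_iff] at h1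
    apply hlt.not_ge
    intro x hx
    rw [← hk x (hA₀.1 hx), ← Subgroup.mem_bot, ← h1]
    exact tf_mem_imageAlong hA₀.1 hx
  have hZne : Z ≠ ⊥ := by
    intro h0
    have hCnt : Nontrivial B := (Subgroup.nontrivial_iff_ne_bot B).2 hBne
    have hCp : IsPGroup p B := hDp.to_le (show B ≤ ⊤ from le_top)
    have := hCp.center_nontrivial
    rw [Subgroup.nontrivial_iff_ne_bot] at this
    apply this
    rw [← hZof, h0]
    exact Subgroup.bot_subgroupOf _
  have hAsc : E.StronglyClosed (preimageAlong θ Z) := preimage_sc hsurj.1 (normal_stronglyClosed hZn)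
  refine ⟨preimageAlong θ Z, sc_of_inv hinv hAsc ?_, preimageAlong_le, ?_, ?_⟩
  · intro α hα x hx
    obtain ⟨hxT, hxZ⟩ := mem_preimageAlong.1 hx
    obtain ⟨hxB, hxc⟩ := (hZmem _).1 hxZ
    refine mem_preimageAlong.2 ⟨autFun_mem _ hxT, (hZmem _).2 ⟨hBinv α hα x hxT hxB, fun b hb => ?_⟩⟩
    obtain ⟨c, hcT, rfl⟩ := exists_tf_eq hr (Subgroup.mem_top b)
    have ha : Mor F T (autFun α) := mor_autFun hTS hα
    have hc' := hBinv α⁻¹ (Subgroup.inv_mem _ hα) c hcT hb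
    have hc'T : autFun α⁻¹ c ∈ T := autFun_mem _ hcT
    have h1 := hxc _ hc'
    rw [← tf_mul hc'T hxT, ← tf_mul hxT hc'T] at h1
    have h2 : (autFun α⁻¹ c * x)⁻¹ * (x * autFun α⁻¹ c) ∈ U := by
      rw [← hk _ (T.mul_mem (T.inv_mem (T.mul_mem hc'T hxT)) (T.mul_mem hxT hc'T)),
        tf_mul (T.inv_mem (T.mul_mem hc'T hxT)) (T.mul_mem hxT hc'T), tf_inv (T.mul_mem hc'T hxT), h1,
        inv_mul_cancel]
    have h3 := hUinv α hα _ h2
    rw [ha.mul (T.inv_mem (T.mul_mem hc'T hxT)) (T.mul_mem hxT hc'T), ha.inv (T.mul_mem hc'T hxT),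
      ha.mul hc'T hxT, ha.mul hxT hc'T, ← autFun_mul _ _ hcT, mul_inv_cancel, autFun_one hcT] at h3
    have hax := autFun_mem α hxT
    have h4 := (hk _ (hUT h3)).2 h3
    rw [tf_mul (T.inv_mem (T.mul_mem hcT hax)) (T.mul_mem hax hcT), tf_inv (T.mul_mem hcT hax),
      inv_mul_eq_one, tf_mul hcT hax, tf_mul hax hcT] at h4
    exact h4
  · refine lt_of_le_of_ne (factor_le_preimage hD) ?_
    intro he
    apply hZne
    rw [eq_bot_iff]
    intro z hz
    obtain ⟨x, hx, hxz⟩ := exists_tf_eq hr (show z ∈ ⊤ from Subgroup.mem_top _)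
    have hxp : x ∈ preimageAlong θ Z := mem_preimageAlong.2 ⟨hx, by rw [hxz]; exact hz⟩
    rw [← he] at hxp
    rw [Subgroup.mem_bot, ← hxz]
    exact (hk x hx).2 hxp
  · rw [Subgroup.commutator_le]
    intro x hx y hy
    obtain ⟨hxT, hxZ⟩ := mem_preimageAlong.1 hx
    obtain ⟨hyT, hyZ⟩ := mem_preimageAlong.1 hy
    rw [← hk _ (hcomT x hxT y hyT), hcom x hxT y hyT]
    exact commutatorElement_eq_one_iff_mul_comm.2 (((hZmem _).1 hyZ).2 _ (hZB hxZ))

end Cfsg.Agent.H13
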