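import Cfsg.Agent.H8.J2Pres
import Cfsg.Prelude.Def_Sporadic

/-!
# The Hall–Janko group on 100 points
-/

set_option autoImplicit false
set_option linter.all false
set_option maxRecDepth 100000

namespace Cfsg.Agent.H13.J2h

open Cfsg.Agent.H8

noncomputable def C0 : Nat := nat_lit 0xc7730e0b17aee29d36cdf935a3d48d2a03f9f6ed3b974abb8ab4dab686e60d1a0bdeb298b214855122b452f15a67c8d2ba62dd9a140c169d5c71427305d222365099f3c3869a324888b1458a85203c488080c6070c08001
noncomputable def T0 : Nat → Nat := fun i => Nat.land (Nat.shiftRight C0 (Nat.mul (nat_lit 7) i)) (nat_lit 127)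
noncomputable def C1 : Nat := nat_lit 0xbf8add7c746ad8c36a65cc112ec2a74af477cf24d974e66c8a0da2d667518b07f3d74e5b2e52b6f194a886ca0c048f5da27085ab44e992af34b15193e78e9c268d0101e58a94362c5182e1c30c24442031c340891000282
noncomputable def T1 : Nat → Nat := fun i => Nat.land (Nat.shiftRight C1 (Nat.mul (nat_lit 7) i)) (nat_lit 127)
noncomputable def C2 : Nat := nat_lit 0xc76f0e0a55a7cec532cca917a3d4817e33ebb71dda9761c57ab45d3686ca0d35f41eb99b15e495d116344f092b07edd5b55a8d01f66998a45464c295078e9336411212e3ca8b384849a2c28686283888208301870a20001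
noncomputable def T2 : Nat → Nat := fun i => Nat.land (Nat.shiftRight C2 (Nat.mul (nat_lit 7) i)) (nat_lit 127)
noncomputable def C3 : Nat := nat_lit 0xc16af63af86a4da38a5c9bf0e15d8afedca7b02e3ab342c3772d69b3ad55a4ea4ba7b059323aa90a6341889943c46f913b42e1b313cc8e1a5eb55972c9ca25229078e407c61d1424d873260295084c902200468b0020303
noncomputable def T3 : Nat → Nat := fun i => Nat.land (Nat.shiftRight C3 (Nat.mul (nat_lit 7) i)) (nat_lit 127)
noncomputable def C4 : Nat := nat_lit 0xc16ace3af3eb4d998b0c9bf762417f21f46bceee5b7ae2c526d41bd568c6a2fa7465ad9cb95ca8b1d543509612480e9e2372d50b33e7593058694984e5531424888201a30f1c166c4190c14b96260c111023c7001424384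
noncomputable def T4 : Nat → Nat := fun i => Nat.land (Nat.shiftRight C4 (Nat.mul (nat_lit 7) i)) (nat_lit 127)
noncomputable def T : Nat → Nat → Nat := fun l => (@Nat.rec (fun _ => Nat → Nat) T0 (fun l _ => (@Nat.rec (fun _ => Nat → Nat) T1 (fun l _ => (@Nat.rec (fun _ => Nat → Nat) T2 (fun l _ => (@Nat.rec (fun _ => Nat → Nat) T3 (fun l _ => T4) l)) l)) l)) l)
noncomputable def inv : Nat → Nat := fun l => l
theorem pk0 : allR (ckPerm (nat_lit 100) T0 T0) (nat_lit 0) (nat_lit 100) = true := by decide +kernel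
theorem pk1 : allR (ckPerm (nat_lit 100) T1 T1) (nat_lit 0) (nat_lit 100) = true := by decide +kernel
theorem pk2 : allR (ckPerm (nat_lit 100) T2 T2) (nat_lit 0) (nat_lit 100) = true := by decide +kernel
theorem pk3 : allR (ckPerm (nat_lit 100) T3 T3) (nat_lit 0) (nat_lit 100) = true := by decide +kernel
theorem pk4 : allR (ckPerm (nat_lit 100) T4 T4) (nat_lit 0) (nat_lit 100) = true := by decide +kernel

theorem tok : TableOK 100 5 T inv where
  lt := by
    intro l hl i hi
    interval_cases l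
    · exact (ckPerm_sound _ _ _ _ (allR_zero _ _ pk0 i hi)).1
    · exact (ckPerm_sound _ _ _ _ (allR_zero _ _ pk1 i hi)).1
    · exact (ckPerm_sound _ _ _ _ (allR_zero _ _ pk2 i hi)).1
    · exact (ckPerm_sound _ _ _ _ (allR_zero _ _ pk3 i hi)).1
    · exact (ckPerm_sound _ _ _ _ (allR_zero _ _ pk4 i hi)).1
  inv_lt := fun l hl => hl
  inv_inv := fun _ _ => rfl
  inv_apply := by
    intro l hl i hi
    interval_cases l
    · exact (ckPerm_sound _ _ _ _ (allR_zero _ _ pk0 i hi)).2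
    · exact (ckPerm_sound _ _ _ _ (allR_zero _ _ pk1 i hi)).2
    · exact (ckPerm_sound _ _ _ _ (allR_zero _ _ pk2 i hi)).2
    · exact (ckPerm_sound _ _ _ _ (allR_zero _ _ pk3 i hi)).2
    · exact (ckPerm_sound _ _ _ _ (allR_zero _ _ pk4 i hi)).2

theorem rk0 : allR (fun i => powT [T0, T1] i (nat_lit 5) i) (nat_lit 0) (nat_lit 100) = true := by decide +kernel
theorem rk1 : allR (fun i => powT [T0, T2] i (nat_lit 2) i) (nat_lit 0) (nat_lit 100) = true := by decide +kernel
theorem rk2 : allR (fun i => powT [T0, T3] i (nat_lit 2) i) (nat_lit 0) (nat_lit 100) = true := by decide +kernel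
theorem rk3 : allR (fun i => powT [T0, T4] i (nat_lit 2) i) (nat_lit 0) (nat_lit 100) = true := by decide +kernel
theorem rk4 : allR (fun i => powT [T1, T2] i (nat_lit 3) i) (nat_lit 0) (nat_lit 100) = true := by decide +kernel
theorem rk5 : allR (fun i => powT [T1, T3] i (nat_lit 2) i) (nat_lit 0) (nat_lit 100) = true := by decide +kernel
theorem rk6 : allR (fun i => powT [T1, T4] i (nat_lit 2) i) (nat_lit 0) (nat_lit 100) = true := by decide +kernel
theorem rk7 : allR (fun i => powT [T2, T3] i (nat_lit 8) i) (nat_lit 0) (nat_lit 100) = true := by decide +kernel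
theorem rk8 : allR (fun i => powT [T2, T4] i (nat_lit 2) i) (nat_lit 0) (nat_lit 100) = true := by decide +kernel
theorem rk9 : allR (fun i => powT [T3, T4] i (nat_lit 3) i) (nat_lit 0) (nat_lit 100) = true := by decide +kernel
theorem rk10 : allR (fun i => powT [T0, T2, T3, T2, T3, T2, T3, T2, T3] i (nat_lit 1) i) (nat_lit 0) (nat_lit 100) = true := by decide +kernel
theorem rk11 : allR (fun i => powT [T1, T2, T3, T2, T3, T1, T2, T3, T2, T3, T1, T2, T3, T2, T3, T1, T2, T3, T2, T3, T1, T2, T3, T2, T3, T4] i (nat_lit 3) i) (nat_lit 0) (nat_lit 100) = true := by decide +kernel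
theorem relp : ∀ p ∈ J2t.rels2, ((p.1.map (permL tok)).prod) ^ p.2 = 1 := by
  refine List.forall_mem_cons.2 ⟨pow_eq_one_of_powT tok [0, 1] (by decide) 5 (fun i hi => allR_zero _ _ rk0 i hi), ?_⟩
  refine List.forall_mem_cons.2 ⟨pow_eq_one_of_powT tok [0, 2] (by decide) 2 (fun i hi => allR_zero _ _ rk1 i hi), ?_⟩
  refine List.forall_mem_cons.2 ⟨pow_eq_one_of_powT tok [0, 3] (by decide) 2 (fun i hi => allR_zero _ _ rk2 i hi), ?_⟩
  refine List.forall_mem_cons.2 ⟨pow_eq_one_of_powT tok [0, 4] (by decide) 2 (fun i hi => allR_zero _ _ rk3 i hi), ?_⟩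
  refine List.forall_mem_cons.2 ⟨pow_eq_one_of_powT tok [1, 2] (by decide) 3 (fun i hi => allR_zero _ _ rk4 i hi), ?_⟩
  refine List.forall_mem_cons.2 ⟨pow_eq_one_of_powT tok [1, 3] (by decide) 2 (fun i hi => allR_zero _ _ rk5 i hi), ?_⟩
  refine List.forall_mem_cons.2 ⟨pow_eq_one_of_powT tok [1, 4] (by decide) 2 (fun i hi => allR_zero _ _ rk6 i hi), ?_⟩
  refine List.forall_mem_cons.2 ⟨pow_eq_one_of_powT tok [2, 3] (by decide) 8 (fun i hi => allR_zero _ _ rk7 i hi), ?_⟩
  refine List.forall_mem_cons.2 ⟨pow_eq_one_of_powT tok [2, 4] (by decide) 2 (fun i hi => allR_zero _ _ rk8 i hi), ?_⟩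
  refine List.forall_mem_cons.2 ⟨pow_eq_one_of_powT tok [3, 4] (by decide) 3 (fun i hi => allR_zero _ _ rk9 i hi), ?_⟩
  refine List.forall_mem_cons.2 ⟨pow_eq_one_of_powT tok [0, 2, 3, 2, 3, 2, 3, 2, 3] (by decide) 1 (fun i hi => allR_zero _ _ rk10 i hi), ?_⟩
  refine List.forall_mem_cons.2 ⟨pow_eq_one_of_powT tok [1, 2, 3, 2, 3, 1, 2, 3, 2, 3, 1, 2, 3, 2, 3, 1, 2, 3, 2, 3, 1, 2, 3, 2, 3, 4] (by decide) 3 (fun i hi => allR_zero _ _ rk11 i hi), ?_⟩
  intro c hc
  exact absurd hc List.not_mem_nil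



noncomputable def ρ : J2P.J →* Equiv.Perm (Fin 100) :=
  RG.lift 5 J2t.rels2 (permL tok) (permL_sq tok)
    (fun l hl => permL_ge tok l (by omega)) relp

theorem hρ : ∀ l, ρ (J2P.s l) = permL tok l := fun l => RG.lift_gen 5 J2t.rels2 _ _ _ _ l

theorem exists_moved : ∃ i : Fin 100, permL tok 0 i ≠ i := by
  refine ⟨⟨0, by decide⟩, fun h => ?_⟩
  have h1 := congrArg Fin.val h
  rw [permL_apply tok 0 (by decide)] at h1
  have h2 : T 0 0 ≠ 0 := by decide +kernel
  exact h2 h1

theorem injective : Function.Injective ρ := by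
  haveI := J2P.simple
  have hk : ρ.ker = ⊥ ∨ ρ.ker = ⊤ := (inferInstance : ρ.ker.Normal).eq_bot_or_eq_top
  rcases hk with hk | hk
  · exact (MonoidHom.ker_eq_bot_iff ρ).1 hk
  · exfalso
    obtain ⟨i, hi⟩ := exists_moved
    have h1 : J2P.s 0 ∈ ρ.ker := by rw [hk]; trivial
    rw [MonoidHom.mem_ker, hρ 0] at h1
    exact hi (by rw [h1]; rfl)

theorem main : ∃ G : Subgroup (Equiv.Perm (Fin 100)), Cfsg.IsJ2 G := by
  haveI := J2P.simple
  let e : J2P.J ≃* ρ.range := MonoidHom.ofInjective injective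
  refine ⟨ρ.range, ?_, ?_⟩
  · haveI : Nontrivial J2P.J := J2P.nontrivial_J
    haveI : Nontrivial ρ.range := e.toEquiv.symm.nontrivial
    exact IsSimpleGroup.isSimpleGroup_of_surjective e.toMonoidHom e.surjective
  · rw [← Nat.card_congr e.toEquiv, J2P.card_J]

end Cfsg.Agent.H13.J2h
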