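import Mathlib

set_option autoImplicit false
set_option linter.style.haveILetI false

/-!
# Arithmetic progressions of elements of norm 1 (Bender–Glauberman, Appendix C)
-/

namespace Cfsg.Agent.H13

open Polynomial

/-- If `∏ (1 + x b^(p^i)) = 1` for all `x` in the prime field, then `p ≤ q`. -/
theorem le_of_prod_eq_one (p q : ℕ) [Fact p.Prime] {F : Type*} [Field F] [CharP F p] (b : F)
    (hb : b ≠ 0) (hq : 0 < q)
    (h : ∀ x : ZMod p, ∏ i ∈ Finset.range q, (1 + ZMod.castHom (dvd_refl p) F x * b ^ (p ^ i)) = 1) :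
    p ≤ q := by
  classical
  set g : F[X] := ∏ i ∈ Finset.range q, (C (b ^ (p ^ i)) * X + C 1) with hg
  have hdeg1 : ∀ i, (C (b ^ (p ^ i)) * X + C 1 : F[X]).natDegree = 1 := fun i =>
    natDegree_linear (pow_ne_zero _ hb)
  have hne1 : ∀ i, (C (b ^ (p ^ i)) * X + C 1 : F[X]) ≠ 0 := by
    intro i h0
    have := hdeg1 i
    rw [h0, natDegree_zero] at this
    omega
  have hgdeg : g.natDegree = q := by
    rw [hg, natDegree_prod _ _ (fun i _ => hne1 i), Finset.sum_congr rfl (fun i _ => hdeg1 i)]
    simp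
  have hfdeg : (g - C 1).natDegree = q := by
    rw [natDegree_sub_C, hgdeg]
  have hf0 : g - C 1 ≠ 0 := by
    intro h0
    rw [h0, natDegree_zero] at hfdeg
    omega
  have hroots : (Finset.univ.image (ZMod.castHom (dvd_refl p) F)) ⊆ (g - C 1).roots.toFinset := by
    intro y hy
    obtain ⟨x, _, rfl⟩ := Finset.mem_image.1 hy
    rw [Multiset.mem_toFinset, mem_roots hf0, IsRoot.def, eval_sub, eval_C, sub_eq_zero, hg,
      eval_prod]
    refine Eq.trans ?_ (h x)
    apply Finset.prod_congr rfl
    intro i _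
    rw [eval_add, eval_mul, eval_C, eval_X, eval_C]
    ring
  have h1 := Finset.card_le_card hroots
  rw [Finset.card_image_of_injective _ (ZMod.castHom (dvd_refl p) F).injective, Finset.card_univ,
    ZMod.card] at h1
  have h2 := (Multiset.toFinset_card_le (g - C 1).roots).trans (card_roots' _)
  rw [hfdeg] at h2
  exact h1.trans h2

/-- An arithmetic progression of elements of norm 1. Here `N` is any multiplicative map with
`N b = 1` detecting the conclusion: if the set `{a | N a = 1 ∧ N (2 - a) = 1}` is closed under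
inversion, all `1 + k (1 - a)` have norm 1. -/
theorem norm_progression {F K : Type*} [Field F] [Field K] (N : F →* K)
    (hN0 : ∀ x, N x = 1 → x ≠ 0)
    (hinv : ∀ a : F, N a = 1 → N (2 - a) = 1 → N (2 - a⁻¹) = 1) (a : F) (h1 : N a = 1)
    (h2 : N (2 - a) = 1) (k : ℕ) : N (1 + (k : F) * (1 - a)) = 1 := by
  -- three consecutive terms
  have key : ∀ k : ℕ, N (a + (k : F) * (1 - a)) = 1 ∧ N (a + ((k + 1 : ℕ) : F) * (1 - a)) = 1 ∧
      N (a + ((k + 2 : ℕ) : F) * (1 - a)) = 1 := by
    intro k
    induction k with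
    | zero =>
      refine ⟨by simpa using h1, ?_, ?_⟩
      · have : (a + ((0 + 1 : ℕ) : F) * (1 - a)) = 1 := by push_cast; ring
        rw [this, map_one]
      · have : (a + ((0 + 2 : ℕ) : F) * (1 - a)) = 2 - a := by push_cast; ring
        rw [this]
        exact h2
    | succ k ih =>
      refine ⟨ih.2.1, ih.2.2, ?_⟩
      set b := a + (k : F) * (1 - a) with hb
      set c := a + ((k + 1 : ℕ) : F) * (1 - a) with hc
      set d := a + ((k + 2 : ℕ) : F) * (1 - a) with hd
      have hc0 := hN0 c ih.2.1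
      have hd0 := hN0 d ih.2.2
      have hdiv : ∀ x y : F, N x = 1 → N y = 1 → N (x / y) = 1 := by
        intro x y hx hy
        have hy0 := hN0 y hy
        have h3 : N (x / y) * N y = N x := by rw [← map_mul, div_mul_cancel₀ _ hy0]
        rwa [hy, mul_one, hx] at h3
      have h3 : 2 - d / c = b / c := by
        rw [eq_div_iff hc0, sub_mul, div_mul_cancel₀ _ hc0, hb, hc, hd]
        push_cast; ring
      have h4 := hinv (d / c) (hdiv _ _ ih.2.2 ih.2.1) (by rw [h3]; exact hdiv _ _ ih.1 ih.2.1)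
      have h5 : a + ((k + 1 + 2 : ℕ) : F) * (1 - a) = (2 - (d / c)⁻¹) * d := by
        rw [inv_div, sub_mul, div_mul_cancel₀ _ hd0, hc, hd]
        push_cast; ring
      rw [h5, map_mul, h4, ih.2.2, one_mul]
  have h3 := (key k).2.1
  have h4 : (1 + (k : F) * (1 - a)) = a + ((k + 1 : ℕ) : F) * (1 - a) := by push_cast; ring
  rw [h4]
  exact h3

end Cfsg.Agent.H13
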