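import Mathlib
import Cfsg.Agent.H13.FusInvar
import Cfsg.Agent.H28.FusInner
import Cfsg.Agent.H28.FusFocal
import Cfsg.Agent.H28.PIdx2
import Cfsg.Agent.H28.Model5
import Cfsg.Agent.H28.StrEmb

/-!
# Normal subsystems of strictly `p`-constrained groups
-/

set_option autoImplicit false
set_option linter.all false
open Cfsg Cfsg.FusionSystem

namespace Cfsg.Agent.H13

open Cfsg.Agent.H28

section general

variable {Ω : Type*} [Group Ω] {S T : Subgroup Ω} {F : FusionSystem S}
  {p : ℕ} {P Q R : Subgroup Ω} {f g h : Ω → Ω}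

/-- An extension of an element of `Aut_F(P)` which normalizes `Aut_S(P)`. -/
theorem extend_of_normalizes [Fact p.Prime] [Finite S] (hS : IsPGroup p S) (hR : F.IsReceptive P)
    (hlt : P < S) {α : MulAut P} (hα : α ∈ F.autGroup P)
    (h : ∀ β ∈ autInducedBy S P, α * β * α⁻¹ ∈ autInducedBy S P) :
    ∃ g, Mor F (normalizerIn S P) g ∧ ∀ x ∈ P, g x = autFun α x := by
  have hPS : P ≤ S := hlt.le
  have h1 : F.IsReceptive (img P (autFun α)) := by rwa [img_autFun]
  obtain ⟨g, hg, hgx⟩ := receptive_extend h1 (mor_autFun hPS hα)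
  refine ⟨g, hg.mono ?_, hgx⟩
  intro s hs
  have hsS : s ∈ S := normalizerIn_le hs
  have hsN : s ∈ Subgroup.normalizer (P : Set Ω) := by
    haveI := finite_of_le hPS
    exact mem_normalizer_of_finite fun x hx => ((mem_normalizerIn.1 hs).2 x).1 hx
  refine mem_Nf.2 ⟨hsS, hsN, ?_⟩
  obtain ⟨t, ht, h2⟩ := mem_autInducedBy'.1 (h _ (conjAut_mem hsN hsS))
  refine ⟨t, ht, fun x hx => ?_⟩
  have h3 := h2 (autFun α x) (autFun_mem α hx)
  rw [autFun_mul _ _ (autFun_mem α hx), autFun_mul _ _ (autFun_mem _ (autFun_mem α hx)),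
    autFun_inv_apply _ hx, autFun_conjAut hsN hx] at h3
  exact h3

/-- A saturated subsystem is contained in an invariant one as soon as this holds for the top automizers. -/
theorem le_of_aut_top [Fact p.Prime] [Finite S] (hS : IsPGroup p S) (hTS : T ≤ S)
    {E E' : FusionSystem T} (hE : E.IsSaturated p) (hEF : ∀ P f, Mor E P f → Mor F P f)
    (hI : SInv F E') (htop : E.autGroup T ≤ E'.autGroup T) : E ≤ E' := by
  haveI : Finite T := finite_of_le hTS
  have hT := isPGroup_of_le hS hTS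
  refine alperin_ind hT hE ?_
  intro P hP ih
  rcases hP with rfl | hP
  · exact htop
  have hlt : P < T := essential_lt hT hE hP
  have hPT : P ≤ T := hlt.le
  have hfn := hP.2.1
  haveI : Finite P := finite_of_le hPT
  haveI : Finite (MulAut P) := finite_mulAut
  obtain ⟨-, Rs, hRs⟩ := FN.fa hT hE hfn
  have hnorm : ∀ a ∈ F.autGroup P, ∀ n ∈ E'.autGroup P, a * n * a⁻¹ ∈ E'.autGroup P := by
    intro a ha n hn
    have hmn := mor_autFun hPT hn
    obtain ⟨k, hk, hk1⟩ := hI P P (autFun n) (autFun a) le_rfl hPT hmn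
      (fun x hx => autFun_mem n hx) (mor_autFun (hPT.trans hTS) ha)
    rw [img_autFun] at hk
    refine mem_autGroup_of_mor hk fun y => ?_
    have h1 := hk1 (autFun a⁻¹ y) (autFun_mem _ y.2)
    rw [autFun_apply_inv _ y.2] at h1
    rw [h1, ← autFun_coe, autFun_mul _ _ y.2, autFun_mul _ _ (autFun_mem _ y.2)]
  have hEA : ∀ a ∈ E.autGroup P, a ∈ F.autGroup P := fun a ha =>
    (mor_autFun_iff (hPT.trans hTS)).1 (hEF _ _ (mor_autFun hPT ha))
  set N : Subgroup (E.autGroup P) := (E'.autGroup P).subgroupOf (E.autGroup P) with hN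
  haveI hNn : N.Normal := ⟨fun n hn a => by
    rw [hN, Subgroup.mem_subgroupOf] at hn ⊢
    exact hnorm _ (hEA _ a.2) _ hn⟩
  intro α hα
  -- the conjugate of Aut_T(P)
  have hRN : (Rs : Subgroup (E.autGroup P)) ≤ N := by
    rw [hRs]
    intro a ha
    rw [Subgroup.mem_subgroupOf] at ha ⊢
    exact autInducedBy_le hPT le_rfl ha
  obtain ⟨v, hv, hv1⟩ := exists_conj_normal Rs N
    ((Rs : Subgroup (E.autGroup P)).map (MulAut.conj (⟨α, hα⟩ : E.autGroup P)).toMonoidHom)
    (Rs.isPGroup'.map _) (by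
      rintro _ ⟨r, hr, rfl⟩
      exact hNn.conj_mem r (hRN hr) _)
  set γ : MulAut P := (v : MulAut P) * α with hγ
  have hγE : γ ∈ E.autGroup P := (E.autGroup P).mul_mem v.2 hα
  have hγn : ∀ β ∈ autInducedBy T P, γ * β * γ⁻¹ ∈ autInducedBy T P := by
    intro β hβ
    have hβE : β ∈ E.autGroup P := autInducedBy_le hPT le_rfl hβ
    have h1 := hv1 (⟨α, hα⟩ * ⟨β, hβE⟩ * (⟨α, hα⟩ : E.autGroup P)⁻¹)
      ⟨⟨β, hβE⟩, by rw [hRs]; exact Subgroup.mem_subgroupOf.2 hβ, rfl⟩
    rw [hRs, Subgroup.mem_subgroupOf] at h1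
    have : γ * β * γ⁻¹ = (v : MulAut P) * (α * β * α⁻¹) * (v : MulAut P)⁻¹ := by
      rw [hγ]; group
    rw [this]; exact h1
  obtain ⟨g, hg, hgx⟩ := extend_of_normalizes hT (FN.rec hT hE hfn) hlt hγE hγn
  haveI : Finite (normalizerIn T P) := finite_of_le normalizerIn_le
  have hg' := ih _ g (card_lt_of_lt' (lt_normalizerIn hT hlt)) hg
  have hγE' : γ ∈ E'.autGroup P := by
    refine mem_autGroup_of_mor ((hg'.mono (le_normalizerIn hPT))) fun x => ?_
    rw [hgx x x.2, autFun_coe]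
  have : α = (v : MulAut P)⁻¹ * γ := by rw [hγ]; group
  rw [this]
  exact (E'.autGroup P).mul_mem ((E'.autGroup P).inv_mem (Subgroup.mem_subgroupOf.1 hv)) hγE'

end general

end Cfsg.Agent.H13
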