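import Mathlib
import Cfsg.Agent.H13.NormCons
import Cfsg.Agent.H13.FusMore2
import Cfsg.Agent.H13.CamHer

/-!
# Normal subsystems of strictly `p`-constrained groups: the group part
-/

set_option autoImplicit false
set_option linter.all false
open Cfsg Cfsg.FusionSystem

namespace Cfsg.Agent.H13

open Cfsg.Agent.H28
open Cfsg.Agent.L (SylIn)

variable {G : Type*} [Group G] [Finite G] {p : ℕ} [Fact p.Prime]

/-- configuration -/
structure NC (p : ℕ) (S : Subgroup G) (T : Subgroup G) (E : FusionSystem T) : Prop where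
  cent : Subgroup.centralizer ((pCore p G : Subgroup G) : Set G) ≤ pCore p G
  syl : SylIn p S ⊤
  nor : E.IsNormalIn (groupFusionSystem S) p

theorem img_conj_normal (N : Subgroup G) (hN : N.Normal) (k : G) : img N (fun x => k * x * k⁻¹) = N := by
  rw [img_conj]
  ext x
  constructor
  · rintro ⟨y, hy, rfl⟩; exact hN.conj_mem y hy k
  · intro hx
    refine ⟨k⁻¹ * x * k, by simpa using hN.conj_mem x hx k⁻¹, ?_⟩
    simp [mul_assoc]

namespace NC

variable {S T : Subgroup G} {E : FusionSystem T}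

theorem inv (h : NC p S T E) : E.IsInvariantIn (groupFusionSystem S) := h.nor.1.2.2

theorem sat (h : NC p S T E) : E.IsSaturated p := h.nor.1.1

theorem sc (h : NC p S T E) : (groupFusionSystem S).StronglyClosed T := h.inv.2.1

theorem TS (h : NC p S T E) : T ≤ S := (stronglyClosed_iff.1 h.sc).1

theorem sub (h : NC p S T E) {P : Subgroup G} {f : G → G} (hf : Mor E P f) :
    Mor (groupFusionSystem S) P f := subsystem_iff.1 h.inv.1 P f hf

theorem sinv (h : NC p S T E) : SInv (groupFusionSystem S) E := strong_of_invariant h.inv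

theorem pg (h : NC p S T E) : IsPGroup p S := h.syl.isPGroup

theorem QS (h : NC p S T E) : pCore p G ≤ S := by
  obtain ⟨x, -, hx⟩ := h.syl.exists_conj_le (isPGroup_pCore (p := p) (X := G)) le_top
  refine le_trans ?_ hx
  intro q hq
  refine ⟨x⁻¹ * q * x, by simpa using (normal_pCore (p := p) (X := G)).conj_mem q hq x⁻¹, ?_⟩
  simp [mul_assoc]

theorem scG (h : NC p S T E) {t g : G} (ht : t ∈ T) (hg : g * t * g⁻¹ ∈ S) : g * t * g⁻¹ ∈ T := by
  have h1 : Mor (groupFusionSystem S) (Subgroup.zpowers t) (fun x => g * x * g⁻¹) := by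
    refine mor_group_conj ((Subgroup.zpowers_le).2 (h.TS ht)) ?_
    intro x hx
    obtain ⟨n, rfl⟩ := Subgroup.mem_zpowers_iff.1 hx
    rw [← conj_zpow]
    exact zpow_mem hg n
  have h2 := sc_apply h.sc h1 (Subgroup.mem_zpowers t) ht
  exact h2

/-- `Q₀`. -/
abbrev Q0 (p : ℕ) (T : Subgroup G) : Subgroup G := pCore p G ⊓ T

theorem Q0n (h : NC p S T E) : (Q0 p T).Normal := ⟨fun x hx g => by
  have h1 : g * x * g⁻¹ ∈ pCore p G := (normal_pCore (p := p) (X := G)).conj_mem x hx.1 g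
  exact ⟨h1, h.scG hx.2 (h.QS h1)⟩⟩

theorem Qc (q g : G) (hq : q ∈ pCore p G) : g * q * g⁻¹ ∈ pCore p G :=
  (normal_pCore (p := p) (X := G)).conj_mem q hq g

theorem Qc' (q g : G) (hq : q ∈ pCore p G) : g⁻¹ * q * g ∈ pCore p G := by
  simpa using (normal_pCore (p := p) (X := G)).conj_mem q hq g⁻¹

/-- elements acting on `Q/Q₀` trivially and on `Q₀` as `E` does. -/
def G3 (h : NC p S T E) : Subgroup G where
  carrier := {g | (∀ q ∈ pCore p G, g * q * g⁻¹ * q⁻¹ ∈ Q0 p T) ∧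
    Mor E (Q0 p T) (fun x => g * x * g⁻¹)}
  one_mem' := ⟨fun q hq => by simp, (mor_id (F := E) inf_le_right).congr fun x _ => by simp⟩
  mul_mem' := by
    rintro a b ⟨ha, ha'⟩ ⟨hb, hb'⟩
    refine ⟨fun q hq => ?_, ?_⟩
    · have h1 := mul_mem (ha _ (Qc q b hq)) (hb q hq)
      have h2 : a * (b * q * b⁻¹) * a⁻¹ * (b * q * b⁻¹)⁻¹ * (b * q * b⁻¹ * q⁻¹) =
        a * b * q * (a * b)⁻¹ * q⁻¹ := by group
      rwa [h2] at h1
    · refine (hb'.comp ha' fun x hx => h.Q0n.conj_mem x hx b).congr fun x _ => ?_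
      simp only [mul_inv_rev, mul_assoc]
  inv_mem' := by
    rintro a ⟨ha, ha'⟩
    refine ⟨fun q hq => ?_, ?_⟩
    · have h1 := inv_mem (ha _ (Qc' q a hq))
      have h2 : (a * (a⁻¹ * q * a) * a⁻¹ * (a⁻¹ * q * a)⁻¹)⁻¹ = a⁻¹ * q * a⁻¹⁻¹ * q⁻¹ := by group
      rwa [h2] at h1
    · obtain ⟨k, hk, hk1, hk2, -⟩ := ha'.inverse
      rw [img_conj_normal _ h.Q0n] at hk
      refine hk.congr fun x hx => ?_
      have hx' : a⁻¹ * x * a ∈ Q0 p T := by simpa using h.Q0n.conj_mem x hx a⁻¹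
      have := hk1 _ hx'
      simp only [mul_assoc, mul_inv_cancel_left, mul_inv_cancel, mul_one] at this
      rw [this]; simp [mul_assoc]

theorem mem_G3 (h : NC p S T E) {g : G} : g ∈ h.G3 ↔ (∀ q ∈ pCore p G, g * q * g⁻¹ * q⁻¹ ∈ Q0 p T) ∧
    Mor E (Q0 p T) (fun x => g * x * g⁻¹) := Iff.rfl

theorem G3n (h : NC p S T E) : h.G3.Normal := ⟨fun g hg k => by
  obtain ⟨h1, h2⟩ := h.mem_G3.1 hg
  refine h.mem_G3.2 ⟨fun q hq => ?_, ?_⟩
  · have h3 := h.Q0n.conj_mem _ (h1 _ (Qc' q k hq)) k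
    have h4 : k * (g * (k⁻¹ * q * k) * g⁻¹ * (k⁻¹ * q * k)⁻¹) * k⁻¹ =
      k * g * k⁻¹ * q * (k * g * k⁻¹)⁻¹ * q⁻¹ := by group
    rwa [h4] at h3
  · obtain ⟨u, hu, hu1⟩ := h.sinv (Q0 p T) (Q0 p T) _ (fun x => k * x * k⁻¹) le_rfl inf_le_right h2
      (fun x hx => h.Q0n.conj_mem x hx g) (mor_group_conj (inf_le_right.trans h.TS)
        fun x hx => h.TS (h.Q0n.conj_mem x hx k).2)
    rw [img_conj_normal _ h.Q0n] at hu
    refine hu.congr fun x hx => ?_
    have hx' : k⁻¹ * x * k ∈ Q0 p T := by simpa using h.Q0n.conj_mem x hx k⁻¹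
    have := hu1 _ hx'
    have h5 : k * (k⁻¹ * x * k) * k⁻¹ = x := by group
    rw [h5] at this
    rw [this]; group⟩

theorem T_le_G3 (h : NC p S T E) : T ≤ h.G3 := by
  intro t ht
  refine h.mem_G3.2 ⟨fun q hq => ⟨?_, ?_⟩, mor_conj inf_le_right ht⟩
  · exact mul_mem (Qc q t hq) ((pCore p G).inv_mem hq)
  · have h1 : q * t⁻¹ * q⁻¹ ∈ T := h.scG (inv_mem ht)
      (mul_mem (mul_mem (h.QS hq) (inv_mem (h.TS ht))) (inv_mem (h.QS hq)))
    have h2 := mul_mem ht h1
    have h3 : t * (q * t⁻¹ * q⁻¹) = t * q * t⁻¹ * q⁻¹ := by group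
    rwa [h3] at h2

/-- (A) -/
theorem small (h : NC p S T E) {c : G} (h0 : ∀ x ∈ Q0 p T, c * x * c⁻¹ = x)
    (h1 : ∀ q ∈ pCore p G, c * q * c⁻¹ * q⁻¹ ∈ Q0 p T) : c ∈ pCore p G := by
  let N : Subgroup G :=
    { carrier := {c | (∀ x ∈ Q0 p T, c * x * c⁻¹ = x) ∧ ∀ q ∈ pCore p G, c * q * c⁻¹ * q⁻¹ ∈ Q0 p T}
      one_mem' := ⟨fun x _ => by simp, fun q hq => by simp⟩
      mul_mem' := by
        rintro a b ⟨ha, ha'⟩ ⟨hb, hb'⟩
        refine ⟨fun x hx => ?_, fun q hq => ?_⟩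
        · have : a * b * x * (a * b)⁻¹ = a * (b * x * b⁻¹) * a⁻¹ := by group
          rw [this, hb x hx, ha x hx]
        · have h1 := mul_mem (ha' _ (Qc q b hq)) (hb' q hq)
          have h2 : a * (b * q * b⁻¹) * a⁻¹ * (b * q * b⁻¹)⁻¹ * (b * q * b⁻¹ * q⁻¹) =
            a * b * q * (a * b)⁻¹ * q⁻¹ := by group
          rwa [h2] at h1
      inv_mem' := by
        rintro a ⟨ha, ha'⟩
        refine ⟨fun x hx => ?_, fun q hq => ?_⟩
        · have h1 := ha x hx
          calc a⁻¹ * x * a⁻¹⁻¹ = a⁻¹ * (a * x * a⁻¹) * a⁻¹⁻¹ := by rw [h1]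
            _ = x := by group
        · have h1 := inv_mem (ha' _ (Qc' q a hq))
          have h2 : (a * (a⁻¹ * q * a) * a⁻¹ * (a⁻¹ * q * a)⁻¹)⁻¹ = a⁻¹ * q * a⁻¹⁻¹ * q⁻¹ := by group
          rwa [h2] at h1 }
  have hNn : N.Normal := ⟨by
    rintro g ⟨h1, h2⟩ k
    refine ⟨fun x hx => ?_, fun q hq => ?_⟩
    · have hx' : k⁻¹ * x * k ∈ Q0 p T := by simpa using h.Q0n.conj_mem x hx k⁻¹
      have h3 := h1 _ hx'
      have h4 : k * g * k⁻¹ * x * (k * g * k⁻¹)⁻¹ = k * (g * (k⁻¹ * x * k) * g⁻¹) * k⁻¹ := by group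
      rw [h4, h3]; group
    · have h3 := h.Q0n.conj_mem _ (h2 _ (Qc' q k hq)) k
      have h4 : k * (g * (k⁻¹ * q * k) * g⁻¹ * (k⁻¹ * q * k)⁻¹) * k⁻¹ =
        k * g * k⁻¹ * q * (k * g * k⁻¹)⁻¹ * q⁻¹ := by group
      rwa [h4] at h3⟩
  have hNp : IsPGroup p N := by
    refine isPGroup_of_coprime fun g hg => ?_
    obtain ⟨h3, h4⟩ := g.2
    have hgN : (g : G) ∈ Subgroup.normalizer ((pCore p G : Subgroup G) : Set G) :=
      mem_normalizer_of_finite fun x hx => Qc x _ hx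
    have hcop : (orderOf (conjAut (pCore p G) (g : G) hgN)).Coprime p := by
      refine Nat.Coprime.coprime_dvd_left ?_ hg
      refine orderOf_dvd_of_pow_eq_one ?_
      have hpow : ∀ n : ℕ, ∀ x ∈ pCore p G, autFun ((conjAut (pCore p G) (g : G) hgN) ^ n) x =
          (g : G) ^ n * x * ((g : G) ^ n)⁻¹ := by
        intro n
        induction n with
        | zero => intro x hx; rw [pow_zero, autFun_one hx]; simp
        | succ n ih =>
          intro x hx
          rw [pow_succ, autFun_mul _ _ hx, autFun_conjAut hgN hx, ih _ (Qc x _ hx)]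
          rw [pow_succ]; group
      refine mulAut_ext fun x hx => ?_
      rw [hpow _ x hx, autFun_one hx, ← Subgroup.coe_pow, pow_orderOf_eq_one]; simp
    have h5 := coprime_step (S := S) h.pg h.QS hcop (D := ⊥) (K := Q0 p T)
      (fun x hx => by
        rw [autFun_conjAut hgN hx]
        have := h.Q0n.conj_mem _ (h4 x hx) x⁻¹
        have h6 : x⁻¹ * ((g : G) * x * (g : G)⁻¹ * x⁻¹) * x⁻¹⁻¹ = x⁻¹ * ((g : G) * x * (g : G)⁻¹) := by
          group
        rwa [h6] at this)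
      (fun x hx hx' => by
        rw [autFun_conjAut hgN hx]; exact h.Q0n.conj_mem x hx' _)
      (fun z hz hz' => by
        rw [autFun_conjAut hgN hz, h3 z hz']; simp)
      (fun y _ _ d hd => by rw [Subgroup.mem_bot.1 hd]; simp)
    have h6 : (g : G) ∈ pCore p G := by
      refine h.cent (Subgroup.mem_centralizer_iff.2 fun x hx => ?_)
      have h7 := Subgroup.mem_bot.1 (h5 x hx)
      rw [autFun_conjAut hgN hx] at h7
      have h8 : x = (g : G) * x * (g : G)⁻¹ := by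
        calc x = x * (x⁻¹ * ((g : G) * x * (g : G)⁻¹)) := by rw [h7, mul_one]
          _ = _ := by group
      calc x * (g : G) = ((g : G) * x * (g : G)⁻¹) * g := by rw [← h8]
        _ = _ := by group
    obtain ⟨n, hn⟩ := isPGroup_pow_one (isPGroup_pCore (p := p) (X := G)) h6
    have h9 : orderOf g ∣ p ^ n := by
      refine orderOf_dvd_of_pow_eq_one ?_
      ext; simpa using hn
    have h10 : orderOf g = 1 := by
      have := Nat.Coprime.pow_right n hg
      exact Nat.Coprime.eq_one_of_dvd this h9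
    exact orderOf_eq_one_iff.1 h10
  exact le_pCore hNn hNp ⟨h0, h1⟩

end NC

end Cfsg.Agent.H13
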