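import Mathlib
import Cfsg.Agent.H13.NormCons2

/-!
# Normal subsystems of strictly `p`-constrained groups: existence and uniqueness
-/

set_option autoImplicit false
set_option linter.all false
open Cfsg Cfsg.FusionSystem

namespace Cfsg.Agent.H13

open Cfsg.Agent.H28
open Cfsg.Agent.L (SylIn)

variable {G : Type*} [Group G] [Finite G] {p : ℕ} [Fact p.Prime]

namespace NC

variable {S T : Subgroup G} {E : FusionSystem T}

theorem fnQ0 (h : NC p S T E) : E.IsFullyNormalized (Q0 p T) :=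
  fullyNormalized_of_normal inf_le_right (by
    haveI := h.Q0n
    rw [Subgroup.normalizer_eq_top]; exact le_top)

theorem pT (h : NC p S T E) : IsPGroup p T := isPGroup_of_le h.pg h.TS

theorem dec (h : NC p S T E) {s : G} (hs : s ∈ S) (hs3 : s ∈ h.G3) :
    ∃ t ∈ T, ∃ c ∈ pCore p G, t * c = s := by
  have hfa := FN.fa h.pT h.sat h.fnQ0
  have h1 := ((fullyAutomized_iff h.pT).1 hfa).2 (autInducedBy (S ⊓ h.G3) (Q0 p T)) (by
      intro α hα
      obtain ⟨g, hg, hg1⟩ := mem_autInducedBy.1 hα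
      exact mem_autGroup_of_mor (h.mem_G3.1 hg.2).2 hg1)
    (isPGroup_autInducedBy (isPGroup_of_le h.pg inf_le_left)) (by
      intro α hα
      obtain ⟨g, hg, hg1⟩ := mem_autInducedBy.1 hα
      exact mem_autInducedBy.2 ⟨g, ⟨h.TS hg, h.T_le_G3 hg⟩, hg1⟩)
  have hsN : s ∈ Subgroup.normalizer ((Q0 p T : Subgroup G) : Set G) := by
    haveI := h.Q0n
    rw [Subgroup.normalizer_eq_top]; exact Subgroup.mem_top _
  obtain ⟨t, ht, ht1⟩ := mem_autInducedBy'.1 (h1 (conjAut_mem hsN (K := S ⊓ h.G3) ⟨hs, hs3⟩))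
  refine ⟨t, ht, t⁻¹ * s, ?_, by group⟩
  have h3 : t⁻¹ * s ∈ h.G3 := mul_mem (inv_mem (h.T_le_G3 ht)) hs3
  refine h.small (fun x hx => ?_) (h.mem_G3.1 h3).1
  have h2 := ht1 x hx
  rw [autFun_conjAut hsN hx] at h2
  have h4 : t⁻¹ * s * x * (t⁻¹ * s)⁻¹ = t⁻¹ * (s * x * s⁻¹) * t := by group
  rw [h4, h2]; group

theorem foc_step (h : NC p S T E) {x g : G} (hx : x ∈ S) (hx3 : x ∈ h.G3) (hg : g ∈ h.G3)
    (hgx : g * x * g⁻¹ ∈ S) : x⁻¹ * (g * x * g⁻¹) ∈ T := by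
  obtain ⟨t, ht, c, hc, rfl⟩ := h.dec hx hx3
  have h1 : g * c * g⁻¹ * c⁻¹ ∈ Q0 p T := (h.mem_G3.1 hg).1 c hc
  have h2 : g * t * g⁻¹ ∈ S := by
    have : g * t * g⁻¹ = g * (t * c) * g⁻¹ * (g * c * g⁻¹)⁻¹ := by group
    rw [this]; exact mul_mem hgx (inv_mem (h.QS (Qc c g hc)))
  have h3 := h.scG ht h2
  have h4 : (g * (t * c) * g⁻¹) * (t * c)⁻¹ ∈ T := by
    have : (g * (t * c) * g⁻¹) * (t * c)⁻¹ = (g * t * g⁻¹) * (g * c * g⁻¹ * c⁻¹) * t⁻¹ := by group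
    rw [this]; exact mul_mem (mul_mem h3 h1.2) (inv_mem ht)
  have h5 := sc_conj h.sc (inv_mem hx) h4
  have h6 : (t * c)⁻¹ * (g * (t * c) * g⁻¹ * (t * c)⁻¹) * (t * c)⁻¹⁻¹ =
    (t * c)⁻¹ * (g * (t * c) * g⁻¹) := by group
  rwa [h6] at h5

/-- `O^p(G₃)` -/
def O (h : NC p S T E) : Subgroup G := Subgroup.closure {g | g ∈ h.G3 ∧ (orderOf g).Coprime p}

theorem O_le (h : NC p S T E) : h.O ≤ h.G3 := (Subgroup.closure_le _).2 fun g hg => hg.1

theorem On (h : NC p S T E) : h.O.Normal := ⟨fun n hn g => by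
  unfold O at hn ⊢
  induction hn using Subgroup.closure_induction with
  | mem x hx =>
    refine Subgroup.subset_closure ⟨h.G3n.conj_mem x hx.1 g, ?_⟩
    have : orderOf (g * x * g⁻¹) = orderOf x := by
      have := orderOf_injective (MulAut.conj g).toMonoidHom (MulAut.conj g).injective x
      simpa using this
    rw [this]; exact hx.2
  | one => simp
  | mul x y _ _ hx hy =>
    have : g * (x * y) * g⁻¹ = (g * x * g⁻¹) * (g * y * g⁻¹) := by group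
    rw [this]; exact mul_mem hx hy
  | inv x _ hx =>
    have : g * x⁻¹ * g⁻¹ = (g * x * g⁻¹)⁻¹ := by group
    rw [this]; exact inv_mem hx⟩

theorem O_eq (h : NC p S T E) : h.O = (pResidual p h.G3).map h.G3.subtype := by
  unfold O pResidual
  rw [MonoidHom.map_closure]
  congr 1
  ext x
  constructor
  · rintro ⟨hx, hx1⟩
    exact ⟨⟨x, hx⟩, by simpa using hx1, rfl⟩
  · rintro ⟨y, hy, rfl⟩
    exact ⟨y.2, by simpa using hy⟩

theorem syl3 (h : NC p S T E) : SylIn p (S ⊓ h.G3) h.G3 := by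
  haveI := h.G3n
  exact coprime_index_sylIn h.syl le_top (by rw [Subgroup.normalizer_eq_top])

theorem O_inf (h : NC p S T E) {x : G} (hx : x ∈ S) (hxO : x ∈ h.O) : x ∈ T := by
  have hx3 : x ∈ h.G3 := h.O_le hxO
  obtain ⟨R, hR⟩ := (sylIn_iff inf_le_right).1 h.syl3
  have h1 := hyperfocal_group R
  have h2 : (groupFusionSystem (R : Subgroup h.G3)).focalSubgroup ≤ T.subgroupOf h.G3 := by
    rw [foc_le_iff]
    intro P f hf y hy
    obtain ⟨hP, hf1, g, hg⟩ := mor_group.1 hf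
    have hyR : y ∈ (R : Subgroup h.G3) := hP hy
    have hfR : f y ∈ (R : Subgroup h.G3) := hf1 y hy
    rw [hR] at hyR hfR
    rw [hg y hy] at hfR ⊢
    exact h.foc_step hyR.1 y.2 g.2 hfR.1
  have h3 : (⟨x, hx3⟩ : h.G3) ∈ (groupFusionSystem (R : Subgroup h.G3)).hyperfocalSubgroup p := by
    rw [h1]
    refine ⟨?_, ?_⟩
    · rw [SetLike.mem_coe, hR]; exact ⟨hx, hx3⟩
    · rw [h.O_eq] at hxO
      obtain ⟨y, hy, hyx⟩ := hxO
      have : y = ⟨x, hx3⟩ := Subtype.ext hyx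
      rw [← this]; exact hy
  exact h2 (hyp_le_foc h3)

theorem G3_dec (h : NC p S T E) {g : G} (hg : g ∈ h.G3) :
    ∃ s ∈ S, s ∈ h.G3 ∧ ∃ o ∈ h.O, s * o = g := by
  obtain ⟨R, hR⟩ := (sylIn_iff inf_le_right).1 h.syl3
  have h1 := sylow_sup_pResidual R
  haveI := Cfsg.Agent.H2.pResidual_normal (G := h.G3) (p := p)
  have h2 : (⟨g, hg⟩ : h.G3) ∈ (R : Subgroup h.G3) ⊔ pResidual p h.G3 := by
    rw [h1]; exact Subgroup.mem_top _
  obtain ⟨s, hs, o, ho, hso⟩ := Subgroup.mem_sup_of_normal_right.1 h2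
  rw [hR] at hs
  refine ⟨s, hs.1, s.2, o, ?_, ?_⟩
  · rw [h.O_eq]; exact ⟨o, ho, rfl⟩
  · exact congrArg Subtype.val hso

/-- the subgroup `T·O^p(G₃)` -/
def H (h : NC p S T E) : Subgroup G := T ⊔ h.O

theorem T_le_H (h : NC p S T E) : T ≤ h.H := le_sup_left
theorem O_le_H (h : NC p S T E) : h.O ≤ h.H := le_sup_right
theorem H_le_G3 (h : NC p S T E) : h.H ≤ h.G3 := sup_le h.T_le_G3 h.O_le

theorem mem_H (h : NC p S T E) {x : G} : x ∈ h.H ↔ ∃ t ∈ T, ∃ o ∈ h.O, t * o = x := by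
  haveI := h.On
  exact Subgroup.mem_sup_of_normal_right

theorem H_inf (h : NC p S T E) {x : G} (hx : x ∈ S) (hxH : x ∈ h.H) : x ∈ T := by
  obtain ⟨t, ht, o, ho, rfl⟩ := h.mem_H.1 hxH
  have h1 : o ∈ S := by
    have : o = t⁻¹ * (t * o) := by group
    rw [this]; exact mul_mem (inv_mem (h.TS ht)) hx
  exact mul_mem ht (h.O_inf h1 ho)

theorem Hn (h : NC p S T E) : h.H.Normal := ⟨fun x hx g => by
  obtain ⟨t, ht, o, ho, rfl⟩ := h.mem_H.1 hx
  have e1 : g * (t * o) * g⁻¹ = (g * t * g⁻¹) * (g * o * g⁻¹) := by group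
  rw [e1]
  refine mul_mem ?_ (h.O_le_H (h.On.conj_mem o ho g))
  -- conjugate `gTg⁻¹` into `S` by an element of `O`
  have h3 : T.map (MulAut.conj g).toMonoidHom ≤ h.G3 := by
    rintro _ ⟨y, hy, rfl⟩
    exact h.G3n.conj_mem y (h.T_le_G3 hy) g
  obtain ⟨v, hv, hv1⟩ := h.syl3.exists_conj_le (h.pT.map _) h3
  obtain ⟨s, hs, hs3, u, hu, rfl⟩ := h.G3_dec hv
  have h4 : (s * u) * (g * t * g⁻¹) * (s * u)⁻¹ ∈ S :=
    (hv1 ⟨g * t * g⁻¹, ⟨t, ht, by simp⟩, by simp [mul_assoc]⟩).1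
  have h5 : (u * g) * t * (u * g)⁻¹ ∈ S := by
    have : (u * g) * t * (u * g)⁻¹ = s⁻¹ * ((s * u) * (g * t * g⁻¹) * (s * u)⁻¹) * s := by group
    rw [this]; exact mul_mem (mul_mem (inv_mem hs) h4) hs
  have h6 := h.scG ht h5
  have h7 : g * t * g⁻¹ = u⁻¹ * ((u * g) * t * (u * g)⁻¹) * u := by group
  rw [h7]
  exact mul_mem (mul_mem (inv_mem (h.O_le_H hu)) (h.T_le_H h6)) (h.O_le_H hu)⟩

theorem sylH (h : NC p S T E) : SylIn p T h.H := by
  haveI := h.Hn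
  have h1 := coprime_index_sylIn h.syl (V := h.H) le_top (by rw [Subgroup.normalizer_eq_top])
  have h2 : S ⊓ h.H = T := le_antisymm (fun x hx => h.H_inf hx.1 hx.2)
    fun x hx => ⟨h.TS hx, h.T_le_H hx⟩
  rwa [h2] at h1

end NC

end Cfsg.Agent.H13
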