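import Mathlib
import Cfsg.Agent.H13.NormCons3

/-!
# Normal subsystems of strictly `p`-constrained groups: identification
-/

set_option autoImplicit false
set_option linter.all false
open Cfsg Cfsg.FusionSystem

namespace Cfsg.Agent.H13

open Cfsg.Agent.H28
open Cfsg.Agent.L (SylIn)

section general

variable {Ω : Type*} [Group Ω] {S T : Subgroup Ω} {F : FusionSystem S} {E : FusionSystem T}
  {p : ℕ} {P Q R : Subgroup Ω} {f g h : Ω → Ω}

theorem sinv_conj_aut (hI : SInv F E) (hTS : T ≤ S) (hPT : P ≤ T) {a n : MulAut P}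
    (ha : a ∈ F.autGroup P) (hn : n ∈ E.autGroup P) : a * n * a⁻¹ ∈ E.autGroup P := by
  have hmn := mor_autFun hPT hn
  obtain ⟨k, hk, hk1⟩ := hI P P (autFun n) (autFun a) le_rfl hPT hmn
    (fun x hx => autFun_mem n hx) (mor_autFun (hPT.trans hTS) ha)
  rw [img_autFun] at hk
  refine mem_autGroup_of_mor hk fun y => ?_
  have h1 := hk1 (autFun a⁻¹ y) (autFun_mem _ y.2)
  rw [autFun_apply_inv _ y.2] at h1
  rw [h1, ← autFun_coe, autFun_mul _ _ y.2, autFun_mul _ _ (autFun_mem _ y.2)]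

theorem autFun_pow_conj {α : MulAut P} {g : Ω} (hg : ∀ x ∈ P, autFun α x = g * x * g⁻¹) (n : ℕ) :
    ∀ x ∈ P, autFun (α ^ n) x = g ^ n * x * (g ^ n)⁻¹ := by
  induction n with
  | zero => intro x hx; rw [pow_zero, autFun_one hx]; simp
  | succ n ih =>
    intro x hx
    rw [pow_succ, autFun_mul _ _ hx, hg x hx, ih _ (by rw [← hg x hx]; exact autFun_mem α hx),
      pow_succ]
    group

theorem orderOf_dvd_of_conj {α : MulAut P} {g : Ω} (hg : ∀ x ∈ P, autFun α x = g * x * g⁻¹) :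
    orderOf α ∣ orderOf g := by
  refine orderOf_dvd_of_pow_eq_one (mulAut_ext fun x hx => ?_)
  rw [autFun_pow_conj hg _ x hx, pow_orderOf_eq_one, autFun_one hx]; simp

end general

variable {G : Type*} [Group G] [Finite G] {p : ℕ} [Fact p.Prime]

namespace NC

variable {S T : Subgroup G} {E : FusionSystem T}

theorem inn_of_S (h : NC p S T E) {α : MulAut T} (hα : α ∈ E.autGroup T) (hαS : α ∈ autInducedBy S T) :
    α ∈ autInducedBy T T := by
  have hfa := FN.fa h.pT h.sat (fullyNormalized_top (F := E))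
  have h1 := ((fullyAutomized_iff h.pT).1 hfa).2 (E.autGroup T ⊓ autInducedBy S T) inf_le_left
    (isPGroup_of_le (isPGroup_autInducedBy h.pg) inf_le_right) (by
      intro α hα
      obtain ⟨g, hg, hg1⟩ := mem_autInducedBy.1 hα
      exact ⟨autInducedBy_le le_rfl le_rfl hα, mem_autInducedBy.2 ⟨g, h.TS hg, hg1⟩⟩)
  exact h1 ⟨hα, hαS⟩

theorem aut_coprime (h : NC p S T E) {α : MulAut T} (hα : α ∈ E.autGroup T)
    (hc : (orderOf α).Coprime p) : α ∈ autInducedBy h.H T := by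
  have hp : p.Prime := Fact.out
  obtain ⟨β, hβ, hβ1, hβ2⟩ := (normalIn_iff.1 h.nor).2 α hα
  have hTC : T ⊔ centralizerIn S T ≤ S := sup_le h.TS centralizerIn_le
  rw [autGroup_group hTC] at hβ
  obtain ⟨g, -, hg⟩ := mem_autInducedBy'.1 hβ
  have hgα : ∀ x ∈ T, autFun α x = g * x * g⁻¹ := fun x hx => by
    rw [← hβ1 x hx, hg x (Subgroup.mem_sup_left hx)]
  have hgT : ∀ x ∈ T, g * x * g⁻¹ ∈ T := fun x hx => by rw [← hgα x hx]; exact autFun_mem α hx
  have hgN : g ∈ Subgroup.normalizer (T : Set G) := mem_normalizer_of_finite hgT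
  have hgc : ∀ c ∈ centralizerIn S T, c⁻¹ * (g * c * g⁻¹) ∈ T ∧ c⁻¹ * (g * c * g⁻¹) ∈ centralizerIn S T :=
    fun c hc => by rw [← hg c (Subgroup.mem_sup_right hc)]; exact hβ2 c hc
  have hZ : ∀ z, z ∈ T → z ∈ centralizerIn S T → g * z * g⁻¹ ∈ T ∧ g * z * g⁻¹ ∈ centralizerIn S T := by
    intro z hz hz'
    refine ⟨hgT z hz, mem_centralizerIn.2 ⟨h.TS (hgT z hz), fun y hy => ?_⟩⟩
    have hy' : g⁻¹ * y * g ∈ T := by
      have := ((Subgroup.mem_normalizer_iff.1 (Subgroup.inv_mem _ hgN)) y).1 hy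
      simpa using this
    have h1 := (mem_centralizerIn.1 hz').2 _ hy'
    calc g * z * g⁻¹ * y = g * (z * (g⁻¹ * y * g)) * g⁻¹ := by group
      _ = g * ((g⁻¹ * y * g) * z) * g⁻¹ := by rw [h1]
      _ = _ := by group
  have hgcn : ∀ n : ℕ, ∀ c ∈ centralizerIn S T, c⁻¹ * (g ^ n * c * (g ^ n)⁻¹) ∈ T ∧
      c⁻¹ * (g ^ n * c * (g ^ n)⁻¹) ∈ centralizerIn S T := by
    intro n
    induction n with
    | zero => intro c hc; simp
    | succ n ih =>
      intro c hc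
      have e : c⁻¹ * (g ^ (n + 1) * c * (g ^ (n + 1))⁻¹) =
          (c⁻¹ * (g * c * g⁻¹)) * (g * (c⁻¹ * (g ^ n * c * (g ^ n)⁻¹)) * g⁻¹) := by
        rw [pow_succ']; group
      have h1 := hgc c hc
      have h2 := hZ _ (ih c hc).1 (ih c hc).2
      rw [e]
      exact ⟨mul_mem h1.1 h2.1, mul_mem h1.2 h2.2⟩
  obtain ⟨j, hj1, hj2⟩ := exists_pprime_pow hp g (orderOf_pos g).ne'
  have hjα : α ^ j = α := by
    conv_rhs => rw [← pow_one α]
    rw [pow_eq_pow_iff_modEq]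
    exact hj2 _ hc (orderOf_dvd_of_conj hgα)
  set k := g ^ j with hk
  have hkα : ∀ x ∈ T, autFun α x = k * x * k⁻¹ := fun x hx => by
    have h1 := autFun_pow_conj hgα j x hx
    rw [hjα] at h1
    exact h1
  have hkT : ∀ x ∈ T, k * x * k⁻¹ ∈ T := fun x hx => by rw [← hkα x hx]; exact autFun_mem α hx
  have hkc : ∀ c ∈ centralizerIn S T, c⁻¹ * (k * c * k⁻¹) ∈ T ∧
      c⁻¹ * (k * c * k⁻¹) ∈ centralizerIn S T := hgcn j
  have hTn : ∀ b ∈ centralizerIn S T, ∀ a ∈ T, b * a * b⁻¹ ∈ T := fun b hb a ha =>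
    sc_conj h.sc (centralizerIn_le hb) ha
  -- commutators with `Q`
  have hKq : ∀ q ∈ pCore p G, k * q * k⁻¹ * q⁻¹ ∈ T ⊔ centralizerIn S T := by
    intro q hq
    have hqN : q ∈ Subgroup.normalizer (T : Set G) := sc_normalizer h.sc (h.QS hq)
    have hδ : conjAut T q hqN ∈ (groupFusionSystem S).autGroup T :=
      autInducedBy_le h.TS le_rfl (conjAut_mem hqN (h.QS hq))
    have h1 : α * (conjAut T q hqN * α⁻¹ * (conjAut T q hqN)⁻¹) ∈ E.autGroup T :=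
      mul_mem hα (sinv_conj_aut h.sinv h.TS le_rfl hδ (inv_mem hα))
    have hαi : ∀ x ∈ T, autFun α⁻¹ x = k⁻¹ * x * k := fun x hx => by
      have h2 := hkα _ (autFun_mem α⁻¹ hx)
      rw [autFun_apply_inv _ hx] at h2
      calc autFun α⁻¹ x = k⁻¹ * (k * autFun α⁻¹ x * k⁻¹) * k := by group
        _ = k⁻¹ * x * k := by rw [← h2]
    have hδi : ∀ x ∈ T, autFun (conjAut T q hqN)⁻¹ x = q⁻¹ * x * q := fun x hx => by
      have h2 := autFun_conjAut hqN (autFun_mem (conjAut T q hqN)⁻¹ hx)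
      rw [autFun_apply_inv _ hx] at h2
      calc autFun (conjAut T q hqN)⁻¹ x = q⁻¹ * (q * autFun (conjAut T q hqN)⁻¹ x * q⁻¹) * q := by group
        _ = q⁻¹ * x * q := by rw [← h2]
    have hw : ∀ x ∈ T, autFun (α * (conjAut T q hqN * α⁻¹ * (conjAut T q hqN)⁻¹)) x =
        (k * q * k⁻¹ * q⁻¹) * x * (k * q * k⁻¹ * q⁻¹)⁻¹ := by
      intro x hx
      have m1 := autFun_mem (conjAut T q hqN)⁻¹ hx
      have m2 := autFun_mem α⁻¹ m1
      have m3 := autFun_mem (conjAut T q hqN) m2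
      rw [autFun_mul _ _ hx, autFun_mul _ _ hx, autFun_mul _ _ m1, hkα _ m3, autFun_conjAut hqN m2,
        hαi _ m1, hδi _ hx]
      group
    have hwS : k * q * k⁻¹ * q⁻¹ ∈ S := mul_mem (h.QS (Qc q k hq)) (inv_mem (h.QS hq))
    obtain ⟨t, ht, ht1⟩ := mem_autInducedBy'.1 (h.inn_of_S h1 (mem_autInducedBy'.2 ⟨_, hwS, hw⟩))
    rw [mem_sup_nrm hTn]
    refine ⟨t, ht, t⁻¹ * (k * q * k⁻¹ * q⁻¹), mem_centralizerIn.2
      ⟨mul_mem (inv_mem (h.TS ht)) hwS, fun y hy => ?_⟩, by group⟩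
    have h3 := ht1 y hy
    rw [hw y hy] at h3
    calc t⁻¹ * (k * q * k⁻¹ * q⁻¹) * y =
        t⁻¹ * ((k * q * k⁻¹ * q⁻¹) * y * (k * q * k⁻¹ * q⁻¹)⁻¹) * (k * q * k⁻¹ * q⁻¹) := by group
      _ = t⁻¹ * (t * y * t⁻¹) * (k * q * k⁻¹ * q⁻¹) := by rw [h3]
      _ = _ := by group
  have hkN : k ∈ Subgroup.normalizer ((pCore p G : Subgroup G) : Set G) :=
    mem_normalizer_of_finite fun x hx => Qc x _ hx
  have hcop : (orderOf (conjAut (pCore p G) k hkN)).Coprime p :=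
    Nat.Coprime.coprime_dvd_left (orderOf_dvd_of_conj fun x hx => autFun_conjAut hkN hx) hj1
  have hstep := coprime_step (S := S) h.pg h.QS hcop (D := T) (K := T ⊔ centralizerIn S T)
    (fun x hx => by
      rw [autFun_conjAut hkN hx]
      have h1 := inv_mem (hKq x⁻¹ ((pCore p G).inv_mem hx))
      have h2 : (k * x⁻¹ * k⁻¹ * x⁻¹⁻¹)⁻¹ = x⁻¹ * (k * x * k⁻¹) := by group
      rwa [h2] at h1)
    (fun x hx hx' => by
      rw [autFun_conjAut hkN hx]
      obtain ⟨t, ht, c, hc, rfl⟩ := (mem_sup_nrm hTn).1 hx'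
      rw [mem_sup_nrm hTn]
      refine ⟨k * t * k⁻¹, hkT t ht, k * c * k⁻¹, ?_, by group⟩
      have : k * c * k⁻¹ = c * (c⁻¹ * (k * c * k⁻¹)) := by group
      rw [this]; exact mul_mem hc (hkc c hc).2)
    (fun z hz hz' => by
      rw [autFun_conjAut hkN hz]
      obtain ⟨t, ht, c, hc, rfl⟩ := (mem_sup_nrm hTn).1 hz'
      have hcomm := (mem_centralizerIn.1 hc).2
      have h1 : t⁻¹ * (k * t * k⁻¹) ∈ T := mul_mem (inv_mem ht) (hkT t ht)
      have e : (t * c)⁻¹ * (k * (t * c) * k⁻¹) =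
          c⁻¹ * (t⁻¹ * (k * t * k⁻¹)) * c * (c⁻¹ * (k * c * k⁻¹)) := by group
      have e2 : c⁻¹ * (t⁻¹ * (k * t * k⁻¹)) * c = t⁻¹ * (k * t * k⁻¹) := by
        have := hcomm _ h1
        calc c⁻¹ * (t⁻¹ * (k * t * k⁻¹)) * c = c⁻¹ * ((t⁻¹ * (k * t * k⁻¹)) * c) := by group
          _ = c⁻¹ * (c * (t⁻¹ * (k * t * k⁻¹))) := by rw [this]
          _ = _ := by group
      rw [e, e2]
      exact mul_mem h1 (hkc c hc).1)
    (fun y hy _ d hd => by
      have := sc_conj h.sc (S.inv_mem (h.QS hy)) hd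
      simpa using this)
  have hk3 : k ∈ h.G3 := by
    refine h.mem_G3.2 ⟨fun q hq => ⟨mul_mem (Qc q k hq) ((pCore p G).inv_mem hq), ?_⟩, ?_⟩
    · have h1 := hstep q⁻¹ ((pCore p G).inv_mem hq)
      rw [autFun_conjAut hkN ((pCore p G).inv_mem hq)] at h1
      have h2 := inv_mem h1
      have h3 : (q⁻¹⁻¹ * (k * q⁻¹ * k⁻¹))⁻¹ = k * q * k⁻¹ * q⁻¹ := by group
      rwa [h3] at h2
    · exact ((mor_autFun le_rfl hα).mono inf_le_right).congr fun x hx => hkα x hx.2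
  exact mem_autInducedBy'.2 ⟨k, h.O_le_H (Subgroup.subset_closure ⟨hk3, hj1⟩), hkα⟩

theorem aut_le (h : NC p S T E) : E.autGroup T ≤ autInducedBy h.H T := by
  intro α hα
  have hfa := FN.fa h.pT h.sat (fullyNormalized_top (F := E))
  obtain ⟨γ, hγ, s, hs, hs1, hs2⟩ := aut_decomp hfa hα
  have h1 : (γ : MulAut T) ∈ autInducedBy h.H T :=
    residual_le_iff.2 (fun α hα hc => h.aut_coprime hα hc) ⟨γ, hγ, rfl⟩
  obtain ⟨g, hg, hg1⟩ := mem_autInducedBy'.1 h1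
  refine mem_autInducedBy'.2 ⟨g * s, mul_mem hg (h.T_le_H hs), fun x hx => ?_⟩
  rw [hs2 x hx, hg1 _ (hs1 x hx)]
  group

theorem aut_ge (h : NC p S T E) : autInducedBy h.H T ≤ E.autGroup T := by
  intro α hα
  obtain ⟨g, hg, hgx⟩ := mem_autInducedBy'.1 hα
  have hgT : ∀ x ∈ T, g * x * g⁻¹ ∈ T := fun x hx => by rw [← hgx x hx]; exact autFun_mem α hx
  have hg3 := h.H_le_G3 hg
  have hrec : E.IsReceptive (img (Q0 p T) (fun x => g * x * g⁻¹)) := by
    rw [img_conj_normal _ h.Q0n]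
    exact FN.rec h.pT h.sat h.fnQ0
  obtain ⟨k, hk, hkx⟩ := receptive_extend hrec (h.mem_G3.1 hg3).2
  have hTN : T ≤ Nf T (Q0 p T) (fun x => g * x * g⁻¹) := by
    intro t ht
    haveI := h.Q0n
    refine mem_Nf.2 ⟨ht, by rw [Subgroup.normalizer_eq_top]; exact Subgroup.mem_top _,
      g * t * g⁻¹, hgT t ht, fun x hx => ?_⟩
    group
  have hk' := hk.mono hTN
  obtain ⟨β, hβ, hβ1⟩ := hk'.exists_aut (isConj_top hk'.isConj)
  obtain ⟨g', hg', hg1⟩ := mem_autInducedBy'.1 (h.aut_le hβ)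
  have hu3 : g'⁻¹ * g ∈ h.G3 := mul_mem (inv_mem (h.H_le_G3 hg')) hg3
  have hu : g'⁻¹ * g ∈ pCore p G := by
    refine h.small (fun x hx => ?_) (h.mem_G3.1 hu3).1
    have h1 := hg1 x hx.2
    rw [hβ1 x hx.2, hkx x hx] at h1
    have e : g'⁻¹ * g * x * (g'⁻¹ * g)⁻¹ = g'⁻¹ * (g * x * g⁻¹) * g' := by group
    rw [e, h1]; group
  have huT : g'⁻¹ * g ∈ T := h.H_inf (h.QS hu) (mul_mem (inv_mem hg') hg)
  have huN : g'⁻¹ * g ∈ Subgroup.normalizer (T : Set G) := Subgroup.le_normalizer huT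
  have : α = β * conjAut T (g'⁻¹ * g) huN := by
    refine mulAut_ext fun x hx => ?_
    rw [autFun_mul _ _ hx, autFun_conjAut huN hx, hgx x hx, hg1]
    · group
    · exact mul_mem (mul_mem huT hx) (inv_mem huT)
  rw [this]
  exact mul_mem hβ (autInducedBy_le le_rfl le_rfl (conjAut_mem huN huT))

theorem fs_sinv (h : NC p S T E) : SInv (groupFusionSystem S) (fusionSystemOfSubgroup h.H T h.T_le_H) := by
  intro P Q f k hPQ hQT hf hfQ hk
  obtain ⟨hPT, hfT, a, ha, hfa⟩ := mor_fs.1 hf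
  obtain ⟨hQS, hkS, b, hb⟩ := mor_group.1 hk
  have hkT : ∀ x ∈ Q, k x ∈ T := fun x hx => sc_apply h.sc hk hx (hQT hx)
  have hkP := hk.mono hPQ
  have key : ∀ x ∈ P, (b * a * b⁻¹) * k x * (b * a * b⁻¹)⁻¹ = k (f x) := by
    intro x hx
    rw [hb x (hPQ hx), hb _ (hfQ x hx), hfa x hx]; group
  refine ⟨fun y => (b * a * b⁻¹) * y * (b * a * b⁻¹)⁻¹, ?_, key⟩
  refine mor_fs_conj (h.Hn.conj_mem a ha b) ?_ ?_
  · rw [img_le_iff]; exact fun x hx => hkT x (hPQ hx)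
  · intro y hy
    obtain ⟨x, hx, rfl⟩ := hkP.mem_img.1 hy
    rw [key x hx]; exact hkT _ (hfQ x hx)

theorem eq_fs (h : NC p S T E) : E = fusionSystemOfSubgroup h.H T h.T_le_H := by
  have ha := autGroup_fs (H := h.H) (T := T) (hTH := h.T_le_H) (P := T) le_rfl
  refine fs_le_antisymm ?_ ?_
  · refine le_of_aut_top h.pg h.TS h.sat (fun P f => h.sub) h.fs_sinv ?_
    rw [ha]; exact h.aut_le
  · refine le_of_aut_top h.pg h.TS (fs_saturated h.sylH) (fun P f hf => ?_) h.sinv ?_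
    · obtain ⟨h1, h2, a, -, ha⟩ := mor_fs.1 hf
      exact mor_group.2 ⟨h1.trans h.TS, fun x hx => h.TS (h2 x hx), a, ha⟩
    · rw [ha]; exact h.aut_ge

theorem uniq (h : NC p S T E) {H' : Subgroup G} (hT : T ≤ H') (hn : H'.Normal) (hs : SylIn p T H')
    (hE : E = fusionSystemOfSubgroup H' T hT) : H' = h.H := by
  have hinf : ∀ x ∈ S, x ∈ H' → x ∈ T := by
    have h1 := hs.eq_of_le (Q := S ⊓ H') (isPGroup_of_le h.pg inf_le_left) inf_le_right
      (le_inf h.TS hT)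
    intro x hx hx'
    rw [h1]; exact ⟨hx, hx'⟩
  have hle : H' ≤ h.G3 := by
    intro g hg
    refine h.mem_G3.2 ⟨fun q hq => ?_, ?_⟩
    · have h1 : g * q * g⁻¹ * q⁻¹ ∈ pCore p G := mul_mem (Qc q g hq) ((pCore p G).inv_mem hq)
      refine ⟨h1, hinf _ (h.QS h1) ?_⟩
      have h2 := mul_mem hg (hn.conj_mem g⁻¹ (inv_mem hg) q)
      have h3 : g * (q * g⁻¹ * q⁻¹) = g * q * g⁻¹ * q⁻¹ := by group
      rwa [h3] at h2
    · rw [hE]
      exact mor_fs_conj hg inf_le_right fun x hx => (h.Q0n.conj_mem x hx g).2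
  have hO : h.O ≤ H' := by
    refine (Subgroup.closure_le _).2 ?_
    rintro g ⟨hg3, hgc⟩
    have h1 := (h.mem_G3.1 hg3).2
    rw [hE] at h1
    obtain ⟨-, -, a, ha, hax⟩ := mor_fs.1 h1
    have hu3 : a⁻¹ * g ∈ h.G3 := mul_mem (inv_mem (hle ha)) hg3
    have hu : a⁻¹ * g ∈ pCore p G := by
      refine h.small (fun x hx => ?_) (h.mem_G3.1 hu3).1
      have h2 := hax x hx
      have e : a⁻¹ * g * x * (a⁻¹ * g)⁻¹ = a⁻¹ * (g * x * g⁻¹) * a := by group
      rw [e, h2]; group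
    obtain ⟨n, hn1⟩ := isPGroup_pow_one (isPGroup_pCore (p := p) (X := G)) hu
    have h3 : (QuotientGroup.mk' H' g) = QuotientGroup.mk' H' (a⁻¹ * g) := by
      rw [map_mul, map_inv]
      have : QuotientGroup.mk' H' a = 1 := by simpa using ha
      rw [this]; simp
    have h4 : orderOf (QuotientGroup.mk' H' g) ∣ p ^ n := by
      rw [h3]
      refine orderOf_dvd_of_pow_eq_one ?_
      rw [← map_pow, hn1, map_one]
    have h5 : orderOf (QuotientGroup.mk' H' g) = 1 :=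
      Nat.Coprime.eq_one_of_dvd ((Nat.Coprime.pow_right n hgc).coprime_dvd_left
        (orderOf_map_dvd _ g)) h4
    have h6 := orderOf_eq_one_iff.1 h5
    simpa using h6
  refine le_antisymm (fun g hg => ?_) (sup_le hT hO)
  obtain ⟨s, hs', hs3, o, ho, rfl⟩ := h.G3_dec (hle hg)
  have h1 : s ∈ H' := by
    have : s = s * o * o⁻¹ := by group
    rw [this]; exact mul_mem hg (inv_mem (hO ho))
  exact h.mem_H.2 ⟨s, hinf s hs' h1, o, ho, rfl⟩

end NC

end Cfsg.Agent.H13
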