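import Mathlib
import Cfsg.Agent.H13.FusInvar
import Cfsg.Agent.H13.NormCons
import Cfsg.Agent.H28.FusInner
import Cfsg.Agent.H28.FusProp

/-!
# Subsystems of index prime to `p`
-/

set_option autoImplicit false
set_option linter.all false
open Cfsg Cfsg.FusionSystem

namespace Cfsg.Agent.H13

open Cfsg.Agent.H28

variable {Ω : Type*} [Group Ω] {S T : Subgroup Ω} {F E : FusionSystem S}
  {p : ℕ} {P Q R : Subgroup Ω} {f g h : Ω → Ω}

theorem map_closure_ppow_le_iff {G : Type*} [Group G] {A X : Subgroup G} :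
    (Subgroup.closure {α : A | ∃ k : ℕ, orderOf α = p ^ k}).map A.subtype ≤ X ↔
      ∀ α ∈ A, (∃ k : ℕ, orderOf α = p ^ k) → α ∈ X := by
  rw [MonoidHom.map_closure, Subgroup.closure_le]
  constructor
  · intro h α hα hk
    exact h ⟨⟨α, hα⟩, by simpa using hk, rfl⟩
  · rintro h _ ⟨α, hα, rfl⟩
    exact h _ α.2 (by simpa using hα)

/-- `E` contains the elements of `p`-power order of automizers of `F`-centric subgroups -/
def PC (p : ℕ) (F E : FusionSystem S) : Prop :=
  ∀ P, F.IsCentric P → ∀ α ∈ F.autGroup P, (∃ k : ℕ, orderOf α = p ^ k) → α ∈ E.autGroup P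

theorem gen_mapProp (p : ℕ) (F : FusionSystem S) :
    MapProp F (fun P f => ∀ E' : FusionSystem S, PC p F E' → Mor E' P f) where
  congr P f g hP h1 h2 E' hE' := (h2 E' hE').congr h1
  conj P s hP hs E' hE' := mor_conj hP hs
  comp P Q f g hf hg hm h1 h2 E' hE' := (h1 E' hE').comp (h2 E' hE') hm
  inv P f i hf hi h1 h2 h3 E' hE' := by
    obtain ⟨k, hk, hk1, -, -⟩ := (h3 E' hE').inverse
    refine hk.congr fun y hy => ?_
    obtain ⟨x, hx, rfl⟩ := hf.mem_img.1 hy
    rw [hk1 x hx, h1 x hx]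

/-- the system generated by the elements of `p`-power order of automizers of `F`-centric subgroups -/
def genSys (p : ℕ) (F : FusionSystem S) : FusionSystem S := propSys F _ (gen_mapProp p F)

theorem mor_genSys : Mor (genSys p F) P f ↔ Mor F P f ∧ ∀ E' : FusionSystem S, PC p F E' → Mor E' P f :=
  mor_propSys

theorem pc_genSys : PC p F (genSys p F) := by
  intro P hP α hα hk
  exact (mor_autFun_iff (centric_le hP)).1 (mor_genSys.2 ⟨mor_autFun (centric_le hP) hα,
    fun E' hE' => mor_autFun (centric_le hP) (hE' P hP α hα hk)⟩)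

theorem genSys_le (h : PC p F E) (hf : Mor (genSys p F) P f) : Mor E P f := (mor_genSys.1 hf).2 E h


theorem conj_mapProp {E : FusionSystem S} {α : MulAut S} (hα : α ∈ F.autGroup S) :
    MapProp F (fun X k => Mor E (img X (autFun α)) (fun y => autFun α (k (autFun α⁻¹ y)))) where
  congr P f g hP h1 h2 := by
    refine h2.congr fun y hy => ?_
    obtain ⟨x, hx, rfl⟩ := ((mor_autFun le_rfl hα).mono hP).mem_img.1 hy
    rw [autFun_inv_apply _ (hP hx), h1 x hx]
  conj P s hP hs := by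
    have h1 := (mor_autFun (F := F) le_rfl hα).mono hP
    refine (mor_conj (F := E) h1.img_le (autFun_mem α hs)).congr fun y hy => ?_
    obtain ⟨x, hx, rfl⟩ := h1.mem_img.1 hy
    simp only
    rw [autFun_inv_apply _ (hP hx), (mor_autFun (F := F) le_rfl hα).conj hs (hP hx)]
  comp P Q f g hf hg hm h1 h2 := by
    have hP := hf.le
    have hQ := hg.le
    have h3 := (mor_autFun (F := F) le_rfl hα)
    refine (h1.comp h2 fun y hy => ?_).congr fun y hy => ?_
    · obtain ⟨x, hx, rfl⟩ := (h3.mono hP).mem_img.1 hy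
      rw [autFun_inv_apply _ (hP hx)]
      exact mem_img_of_mem (hm x hx)
    · obtain ⟨x, hx, rfl⟩ := (h3.mono hP).mem_img.1 hy
      rw [autFun_inv_apply _ (hP hx), autFun_inv_apply _ (hQ (hm x hx))]
  inv P f i hf hi h1 h2 h3 := by
    have hP := hf.le
    have h4 := (mor_autFun (F := F) le_rfl hα)
    obtain ⟨k, hk, hk1, -, -⟩ := h3.inverse
    have e : img (img P (autFun α)) (fun y => autFun α (f (autFun α⁻¹ y))) = img (img P f) (autFun α) := by
      rw [(h4.mono hP).img_comp, hf.img_comp]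
      exact img_congr fun x hx => by rw [autFun_inv_apply _ (hP hx)]
    rw [e] at hk
    refine hk.congr fun y hy => ?_
    obtain ⟨z, hz, rfl⟩ := (h4.mono hf.img_le).mem_img.1 hy
    obtain ⟨x, hx, rfl⟩ := hf.mem_img.1 hz
    have h5 := hk1 _ (mem_img_of_mem (f := autFun α) hx)
    rw [autFun_inv_apply _ (hP hx)] at h5
    rw [h5, autFun_inv_apply _ (hf.mem hx), h1 x hx]

theorem genSys_aInv : AInv F (genSys p F) := by
  intro P f hf α hα
  obtain ⟨hfF, hfE⟩ := mor_genSys.1 hf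
  have hP := hfF.le
  have h4 := (mor_autFun (F := F) le_rfl hα)
  have h4i := (mor_autFun (F := F) le_rfl ((F.autGroup S).inv_mem hα))
  refine ⟨fun y => autFun α (f (autFun α⁻¹ y)), mor_genSys.2 ⟨?_, fun E' hE' => ?_⟩, fun x hx => by
    show autFun α (f (autFun α⁻¹ (autFun α x))) = _
    rw [autFun_inv_apply _ (hP hx)]⟩
  · have h5 : Mor F (img P (autFun α)) (autFun α⁻¹) := h4i.mono (h4.mono hP).img_le
    refine ((h5.comp hfF fun y hy => ?_).comp h4 fun y hy => ?_)
    · obtain ⟨x, hx, rfl⟩ := (h4.mono hP).mem_img.1 hy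
      rw [autFun_inv_apply _ (hP hx)]; exact hx
    · obtain ⟨x, hx, rfl⟩ := (h4.mono hP).mem_img.1 hy
      rw [autFun_inv_apply _ (hP hx)]; exact hfF.mem hx
  · have hpc : PC p F (propSys F _ (conj_mapProp (E := E') hα)) := by
      intro R hR β hβ hk
      have hRS := centric_le hR
      have h6 := h4.mono hRS
      refine (mor_autFun_iff hRS).1 (mor_propSys.2 ⟨mor_autFun hRS hβ, ?_⟩)
      have h7 : h6.transport β ∈ E'.autGroup (img R (autFun α)) := by
        refine hE' _ (centric_img hR h6) _ (h6.transport_mem hβ) ?_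
        obtain ⟨k, hk⟩ := hk
        exact ⟨k, by rw [MulEquiv.orderOf_eq, hk]⟩
      refine (mor_autFun h6.img_le h7).congr fun y hy => ?_
      obtain ⟨x, hx, rfl⟩ := h6.mem_img.1 hy
      rw [h6.transport_apply β hx, autFun_inv_apply _ (hRS hx)]
    exact (mor_propSys.1 (hfE _ hpc)).2

theorem genSys_fr_prop : MapProp F (fun P f => Fr F (genSys p F) P f) where
  congr P f g hP h1 h2 := h2.congr h1
  conj P s hP hs := fr_of_mor le_rfl (mor_conj hP hs)
  comp P Q f g hf hg hm h1 h2 := h1.comp genSys_aInv le_rfl h2 hm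
  inv P f i hf hi h1 h2 h3 := by
    obtain ⟨k, hk, hk1, -⟩ := h3.inverse genSys_aInv le_rfl
    refine hk.congr fun y hy => ?_
    obtain ⟨x, hx, rfl⟩ := hf.mem_img.1 hy
    rw [hk1 x hx, h1 x hx]

theorem closure_ppow_normal {G : Type*} [Group G] :
    (Subgroup.closure {α : G | ∃ k : ℕ, orderOf α = p ^ k}).Normal := ⟨fun n hn g => by
  induction hn using Subgroup.closure_induction with
  | mem x hx =>
    obtain ⟨k, hk⟩ := hx
    refine Subgroup.subset_closure ⟨k, ?_⟩
    have := orderOf_injective (MulAut.conj g).toMonoidHom (MulAut.conj g).injective x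
    rw [← hk, ← this]; simp
  | one => simp
  | mul x y _ _ hx hy =>
    have : g * (x * y) * g⁻¹ = (g * x * g⁻¹) * (g * y * g⁻¹) := by group
    rw [this]; exact mul_mem hx hy
  | inv x _ hx =>
    have : g * x⁻¹ * g⁻¹ = (g * x * g⁻¹)⁻¹ := by group
    rw [this]; exact inv_mem hx⟩

theorem le_closure_ppow [Fact p.Prime] {G : Type*} [Group G] {A : Subgroup G} (hA : IsPGroup p A) :
    A ≤ Subgroup.closure {α : G | ∃ k : ℕ, orderOf α = p ^ k} := by
  intro a ha
  obtain ⟨n, hn⟩ := isPGroup_pow_one hA ha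
  obtain ⟨k, -, hk⟩ := (Nat.dvd_prime_pow (Fact.out : p.Prime)).1 (orderOf_dvd_of_pow_eq_one hn)
  exact Subgroup.subset_closure ⟨k, hk⟩

/-- The Frattini condition for the generated system. -/
theorem genSys_frattini [Fact p.Prime] [Finite S] (hS : IsPGroup p S) (hF : F.IsSaturated p)
    (hf : Mor F P f) : Fr F (genSys p F) P f := by
  refine alperin_prop_ind hS hF genSys_fr_prop ?_ hf
  intro P hP ih α hα
  rcases hP with rfl | hP
  · exact ⟨α, hα, id, mor_id le_rfl, fun x hx => rfl⟩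
  have hlt : P < S := essential_lt hS hF hP
  have hPS : P ≤ S := hlt.le
  have hfn := hP.2.1
  haveI : Finite P := finite_of_le hPS
  haveI : Finite (MulAut P) := finite_mulAut
  obtain ⟨-, Rs, hRs⟩ := FN.fa hS hF hfn
  haveI hKn := closure_ppow_normal (p := p) (G := F.autGroup P)
  set K := Subgroup.closure {α : F.autGroup P | ∃ k : ℕ, orderOf α = p ^ k} with hK
  have hKE : ∀ v ∈ K, (v : MulAut P) ∈ (genSys p F).autGroup P := fun v hv =>
    (map_closure_ppow_le_iff (p := p)).2 (pc_genSys P hP.1) ⟨v, hv, rfl⟩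
  obtain ⟨v, hv, hv1⟩ := exists_conj_normal Rs K
    ((Rs : Subgroup (F.autGroup P)).map (MulAut.conj (⟨α, hα⟩ : F.autGroup P)).toMonoidHom)
    (Rs.isPGroup'.map _) (le_closure_ppow (Rs.isPGroup'.map _))
  set γ : MulAut P := (v : MulAut P) * α with hγ
  have hγF : γ ∈ F.autGroup P := (F.autGroup P).mul_mem v.2 hα
  have hγn : ∀ β ∈ autInducedBy S P, γ * β * γ⁻¹ ∈ autInducedBy S P := by
    intro β hβ
    have hβF : β ∈ F.autGroup P := autInducedBy_le hPS le_rfl hβ
    have h1 := hv1 (⟨α, hα⟩ * ⟨β, hβF⟩ * (⟨α, hα⟩ : F.autGroup P)⁻¹)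
      ⟨⟨β, hβF⟩, by rw [hRs]; exact Subgroup.mem_subgroupOf.2 hβ, rfl⟩
    rw [hRs, Subgroup.mem_subgroupOf] at h1
    have : γ * β * γ⁻¹ = (v : MulAut P) * (α * β * α⁻¹) * (v : MulAut P)⁻¹ := by
      rw [hγ]; group
    rw [this]; exact h1
  obtain ⟨g, hg, hgx⟩ := extend_of_normalizes hS (FN.rec hS hF hfn) hlt hγF hγn
  haveI : Finite (normalizerIn S P) := finite_of_le normalizerIn_le
  have h2 : Fr F (genSys p F) P (autFun γ) :=
    ((ih _ g (card_lt_of_lt' (lt_normalizerIn hS hlt)) hg).mono (le_normalizerIn hPS)).congr hgx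
  have h3 : Fr F (genSys p F) P (autFun (v : MulAut P)⁻¹) :=
    fr_of_mor le_rfl (mor_autFun hPS (((genSys p F).autGroup P).inv_mem (hKE v hv)))
  refine (h2.comp genSys_aInv le_rfl h3 fun x hx => autFun_mem _ hx).congr fun x hx => ?_
  rw [← autFun_mul _ _ hx, hγ]
  simp

/-- all `p`-elements -/
theorem pc_all [Fact p.Prime] [Finite S] (hS : IsPGroup p S) (hF : F.IsSaturated p) (hE : PC p F E)
    (hPS : P ≤ S) {α : MulAut P} (hα : α ∈ F.autGroup P) (hk : ∃ k : ℕ, orderOf α = p ^ k) :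
    α ∈ E.autGroup P := by
  obtain ⟨k, hk⟩ := hk
  obtain ⟨ρ, hρ, -, s, hs, hρ1⟩ := exists_conj_of_pElement hS hF hPS hα
    (n := k) (by rw [← hk]; exact pow_orderOf_eq_one α)
  obtain ⟨β, hβ, g, hg, hg1⟩ := genSys_frattini hS hF hρ
  have hgE := genSys_le hE hg
  have hβm := mor_autFun (F := F) le_rfl hβ
  have hs' : autFun β⁻¹ s ∈ S := autFun_mem _ hs
  have h1 : ∀ x ∈ P, g (autFun α x) = autFun β⁻¹ s * g x * (autFun β⁻¹ s)⁻¹ := by
    intro x hx
    have h2 := hρ1 x hx
    rw [hg1 _ (autFun_mem α hx), hg1 x hx] at h2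
    refine hβm.inj (hg.mem (autFun_mem α hx)) (mul_mem (mul_mem hs' (hg.mem hx)) (inv_mem hs')) ?_
    rw [h2, hβm.conj hs' (hg.mem hx), autFun_apply_inv _ hs]
  obtain ⟨i, hi, hi1, -, -⟩ := hgE.inverse
  have h3 := (hgE.comp (mor_conj (F := E) hgE.img_le hs') (fun x hx => mem_img_of_mem hx)).comp hi
    (fun x hx => by
      rw [← h1 x hx]; exact mem_img_of_mem (autFun_mem α hx))
  refine (mor_autFun_iff hPS).1 (h3.congr fun x hx => ?_)
  rw [← h1 x hx, hi1 _ (autFun_mem α hx)]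

theorem pc_centric_iff [Fact p.Prime] [Finite S] (hS : IsPGroup p S) (hF : F.IsSaturated p)
    (hEF : ∀ P f, Mor E P f → Mor F P f) (hE : PC p F E) : E.IsCentric P ↔ F.IsCentric P := by
  constructor
  · intro h
    refine ⟨h.1, fun Q hQ => ?_⟩
    obtain ⟨f, hf, rfl⟩ := isConj_iff.1 hQ
    obtain ⟨β, hβ, g, hg, hg1⟩ := genSys_frattini hS hF hf
    have hgE := genSys_le hE hg
    intro x hx
    have hx' := mem_centralizerIn.1 hx
    have hβm := mor_autFun (F := F) le_rfl hβ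
    have h1 : autFun β⁻¹ x ∈ centralizerIn S (img P g) := by
      refine mem_centralizerIn.2 ⟨autFun_mem _ hx'.1, fun y hy => ?_⟩
      obtain ⟨z, hz, rfl⟩ := hg.mem_img.1 hy
      refine hβm.inj (mul_mem (autFun_mem _ hx'.1) (hg.mem hz)) (mul_mem (hg.mem hz) (autFun_mem _ hx'.1)) ?_
      rw [hβm.mul (autFun_mem _ hx'.1) (hg.mem hz), hβm.mul (hg.mem hz) (autFun_mem _ hx'.1),
        autFun_apply_inv _ hx'.1, ← hg1 z hz]
      exact hx'.2 _ (mem_img_of_mem hz)
    have h2 := h.2 _ hgE.isConj h1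
    obtain ⟨z, hz, hz1⟩ := hg.mem_img.1 h2
    have : x = f z := by
      rw [hg1 z hz, hz1, autFun_apply_inv _ hx'.1]
    rw [this]
    exact mem_img_of_mem hz
  · intro h
    refine ⟨h.1, fun Q hQ => h.2 Q ?_⟩
    obtain ⟨f, hf, rfl⟩ := isConj_iff.1 hQ
    exact (hEF _ _ hf).isConj

end Cfsg.Agent.H13
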