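import Mathlib
import Cfsg.Prelude.Def_TwoFusion
import Cfsg.Agent.H28.FusFactor
import Cfsg.Agent.H28.FusFactor3
import Cfsg.Agent.H28.FusKNorm
import Cfsg.Agent.H28.FusReal
import Cfsg.Agent.H28.FusInv

/-!
# Saturated systems over a direct product of two strongly closed subgroups
-/

set_option autoImplicit false
set_option linter.all false
open Cfsg Cfsg.FusionSystem

namespace Cfsg.Agent.H13

open Cfsg.Agent.H28
open Cfsg.Agent

universe u v w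

section
variable {Ω : Type u} [Group Ω] {S S₁ S₂ : Subgroup Ω} {F : FusionSystem S}
  {P Q : Subgroup Ω} {f g : Ω → Ω} {x y z s t : Ω} {p : ℕ}

theorem ext_dp [Fact p.Prime] [Finite S] (hS : IsPGroup p S) (hF : F.IsSaturated p)
    (hd : S₁ ⊓ S₂ = ⊥) (h₁ : F.StronglyClosed S₁) (h₂ : F.StronglyClosed S₂) (hP : P ≤ S₁)
    (hf : Mor F P f) : ∃ g, Mor F (P ⊔ S₂) g ∧ ∀ x ∈ P, g x = f x := by
  obtain ⟨g, hg, h⟩ := mod_extend hS hF h₂ hf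
  refine ⟨g, hg, fun x hx => ?_⟩
  obtain ⟨t, ht, h3⟩ := h x hx
  have h4 := sc_apply h₁ hg (le_sup_left (b := S₂) hx) (hP hx)
  have h5 := sc_apply h₁ hf hx (hP hx)
  have h6 : t ∈ S₁ ⊓ S₂ := ⟨by
    have : t = (f x)⁻¹ * g x := by rw [h3]; group
    rw [this]; exact S₁.mul_mem (S₁.inv_mem h5) h4, ht⟩
  rw [hd, Subgroup.mem_bot] at h6
  rw [h3, h6, mul_one]

/-- The projection to the first factor. -/
theorem exists_proj (hp : IsInternalDirectProduct S₁ S₂ S) :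
    ∃ θ : S →* Ω, ∀ x ∈ S, tf θ x ∈ S₁ ∧ ∃ b ∈ S₂, x = tf θ x * b := by
  obtain ⟨h1, h2, hc, hd, hs⟩ := hp
  have huniq : ∀ a ∈ S₁, ∀ a' ∈ S₁, ∀ b ∈ S₂, ∀ b' ∈ S₂, a * b = a' * b' → a = a' := by
    intro a ha a' ha' b hb b' hb' h
    have h3 : a'⁻¹ * a = b' * b⁻¹ := by
      rw [eq_mul_inv_iff_mul_eq, mul_assoc, h]; group
    have h4 : a'⁻¹ * a ∈ S₁ ⊓ S₂ := ⟨S₁.mul_mem (S₁.inv_mem ha') ha, by
      rw [h3]; exact S₂.mul_mem hb' (S₂.inv_mem hb)⟩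
    rw [hd, Subgroup.mem_bot] at h4
    exact (inv_mul_eq_one.1 h4).symm
  obtain ⟨θ, hθ⟩ := exists_hom_of_rel (X := S) (Y := Ω)
    (fun x y => y ∈ S₁ ∧ ∃ b ∈ S₂, (x : Ω) = y * b) (by
      rintro ⟨x, hx⟩
      have hx' : x ∈ S₁ ⊔ S₂ := by rw [hs]; exact hx
      refine Subgroup.closure_induction (k := (S₁ : Set Ω) ∪ S₂)
        (p := fun x _ => ∃ y, y ∈ S₁ ∧ ∃ b ∈ S₂, x = y * b) ?_ ?_ ?_ ?_
          (by rwa [← Subgroup.sup_eq_closure])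
      · rintro x (hx | hx)
        · exact ⟨x, hx, 1, S₂.one_mem, (mul_one x).symm⟩
        · exact ⟨1, S₁.one_mem, x, hx, (one_mul x).symm⟩
      · exact ⟨1, S₁.one_mem, 1, S₂.one_mem, (mul_one 1).symm⟩
      · rintro _ _ - - ⟨a, ha, b, hb, rfl⟩ ⟨a', ha', b', hb', rfl⟩
        refine ⟨a * a', S₁.mul_mem ha ha', b * b', S₂.mul_mem hb hb', ?_⟩
        calc a * b * (a' * b') = a * (b * a') * b' := by group
          _ = a * (a' * b) * b' := by rw [hc a' ha' b hb]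
          _ = a * a' * (b * b') := by group
      · rintro _ - ⟨a, ha, b, hb, rfl⟩
        refine ⟨a⁻¹, S₁.inv_mem ha, b⁻¹, S₂.inv_mem hb, ?_⟩
        rw [mul_inv_rev, hc _ (S₁.inv_mem ha) _ (S₂.inv_mem hb)])
    (by
      rintro x y y' ⟨hy, b, hb, e⟩ ⟨hy', b', hb', e'⟩
      exact huniq y hy y' hy' b hb b' hb' (e.symm.trans e'))
    (by
      rintro x x' y y' ⟨hy, b, hb, e⟩ ⟨hy', b', hb', e'⟩
      refine ⟨S₁.mul_mem hy hy', b * b', S₂.mul_mem hb hb', ?_⟩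
      show (x : Ω) * (x' : Ω) = _
      rw [e, e']
      calc y * b * (y' * b') = y * (b * y') * b' := by group
        _ = y * (y' * b) * b' := by rw [hc y' hy' b hb]
        _ = y * y' * (b * b') := by group)
  refine ⟨θ, fun x hx => ?_⟩
  rw [tf_apply _ hx]
  exact hθ ⟨x, hx⟩

structure DP (F : FusionSystem S) (S₁ S₂ : Subgroup Ω) (θ : S →* Ω) : Prop where
  l1 : S₁ ≤ S
  l2 : S₂ ≤ S
  c : ∀ a ∈ S₁, ∀ b ∈ S₂, a * b = b * a
  d : S₁ ⊓ S₂ = ⊥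
  s : S₁ ⊔ S₂ = S
  θ1 : ∀ x ∈ S, tf θ x ∈ S₁
  θ2 : ∀ x ∈ S, ∃ b ∈ S₂, x = tf θ x * b
  h1 : F.StronglyClosed S₁
  h2 : F.StronglyClosed S₂

variable {θ : S →* Ω}

theorem DP.uniq (h : DP F S₁ S₂ θ) {a a' b b' : Ω} (ha : a ∈ S₁) (ha' : a' ∈ S₁) (hb : b ∈ S₂)
    (hb' : b' ∈ S₂) (e : a * b = a' * b') : a = a' := by
  have h3 : a'⁻¹ * a = b' * b⁻¹ := by
    rw [eq_mul_inv_iff_mul_eq, mul_assoc, e]; group
  have h4 : a'⁻¹ * a ∈ S₁ ⊓ S₂ := ⟨S₁.mul_mem (S₁.inv_mem ha') ha, by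
    rw [h3]; exact S₂.mul_mem hb' (S₂.inv_mem hb)⟩
  rw [h.d, Subgroup.mem_bot] at h4
  exact (inv_mul_eq_one.1 h4).symm

theorem DP.θ_id (h : DP F S₁ S₂ θ) (hx : x ∈ S₁) : tf θ x = x := by
  obtain ⟨b, hb, e⟩ := h.θ2 x (h.l1 hx)
  exact (h.uniq hx (h.θ1 x (h.l1 hx)) S₂.one_mem hb (by rw [mul_one]; exact e)).symm

theorem DP.range (h : DP F S₁ S₂ θ) : θ.range = S₁ := by
  ext y
  constructor
  · rintro ⟨x, rfl⟩
    rw [← tf_coe]; exact h.θ1 x x.2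
  · intro hy
    refine ⟨⟨y, h.l1 hy⟩, ?_⟩
    rw [← tf_apply θ (h.l1 hy)]; exact h.θ_id hy

theorem DP.image_le (h : DP F S₁ S₂ θ) (hP : P ≤ S) : imageAlong θ P ≤ P ⊔ S₂ := by
  intro y hy
  obtain ⟨x, hxS, hx, rfl⟩ := mem_imageAlong.1 hy
  obtain ⟨b, hb, e⟩ := h.θ2 x hxS
  have : tf θ x = x * b⁻¹ := by rw [eq_mul_inv_iff_mul_eq]; exact e.symm
  rw [this]
  exact Subgroup.mul_mem _ (le_sup_left (b := S₂) hx) (Subgroup.inv_mem _ (le_sup_right (a := P) hb))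

theorem DP.preimage_le (h : DP F S₁ S₂ θ) : preimageAlong θ P ≤ P ⊔ S₂ := by
  intro x hx
  obtain ⟨hxS, hxP⟩ := mem_preimageAlong.1 hx
  obtain ⟨b, hb, e⟩ := h.θ2 x hxS
  rw [e]
  exact Subgroup.mul_mem _ (le_sup_left (b := S₂) hxP) (le_sup_right (a := P) hb)

/-- The value of an extension. -/
theorem DP.val (h : DP F S₁ S₂ θ) (hg : Mor F (P ⊔ S₂) g) (hxS : x ∈ S) (hx : x ∈ P ⊔ S₂) :
    g (tf θ x) = tf θ (g x) := by
  obtain ⟨b, hb, e⟩ := h.θ2 x hxS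
  have hb' : b ∈ P ⊔ S₂ := le_sup_right (a := P) hb
  have e1 : tf θ x = x * b⁻¹ := by rw [eq_mul_inv_iff_mul_eq]; exact e.symm
  have htx : tf θ x ∈ P ⊔ S₂ := by
    rw [e1]; exact Subgroup.mul_mem _ hx (Subgroup.inv_mem _ hb')
  have h3 : g (tf θ x) ∈ S₁ := sc_apply h.h1 hg htx (h.θ1 x hxS)
  have h4 : g b ∈ S₂ := sc_apply h.h2 hg hb' hb
  have h5 : g x = g (tf θ x) * g b := by rw [← hg.mul htx hb', ← e]
  obtain ⟨c, hc, e2⟩ := h.θ2 (g x) (hg.mem hx)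
  exact h.uniq h3 (h.θ1 _ (hg.mem hx)) h4 hc (h5.symm.trans e2)

variable {R R' : FusionSystem S₁}

theorem mor_full (h1 : S₁ ≤ S) (hR : ∀ P : Subgroup Ω, P ≤ S₁ → R.Hom P = F.Hom P) :
    Mor R P f ↔ P ≤ S₁ ∧ Mor F P f := by
  constructor
  · intro h
    have hP := h.le
    obtain ⟨φ, hφ, h2⟩ := h
    rw [hR P hP] at hφ
    exact ⟨hP, φ, hφ, h2⟩
  · rintro ⟨hP, φ, hφ, h2⟩
    rw [← hR P hP] at hφ
    exact ⟨φ, hφ, h2⟩

theorem mor_cent (hc : S₁ ≤ centralizerIn S S₂) (h₁ : F.StronglyClosed S₁)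
    (hR' : ∀ P : Subgroup Ω, P ≤ S₁ → R'.Hom P = F.centralizerHom S₂ P) :
    Mor R' P f ↔ P ≤ S₁ ∧ ∃ g, Mor F (P ⊔ S₂) g ∧ (∀ x ∈ P, g x = f x) ∧ ∀ x ∈ S₂, g x = x := by
  have hS2 : centralizerIn S S₂ ≤ S := inf_le_left
  constructor
  · intro h
    have hP := h.le
    obtain ⟨φ, hφ, h2⟩ := h
    rw [hR' P hP, centralizerHom_iff] at hφ
    obtain ⟨-, -, g, hg, h3, κ, hκ, h4⟩ := hφ
    rw [Subgroup.mem_bot] at hκ
    subst hκ
    exact ⟨hP, g, hg, fun x hx => by rw [← h3 ⟨x, hx⟩]; exact h2 ⟨x, hx⟩, fun x hx => by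
      rw [h4 x hx, autFun_one hx]⟩
  · rintro ⟨hP, g, hg, h3, h4⟩
    have hf : Mor F P f := (hg.mono le_sup_left).congr h3
    obtain ⟨φ, hφ, h2⟩ := id hf
    refine ⟨φ, ?_, h2⟩
    rw [hR' P hP, centralizerHom_iff]
    refine ⟨hP.trans hc, fun x => ?_, g, hg, fun x => by rw [h2 x, h3 x x.2], 1, Subgroup.one_mem _,
      fun x hx => by rw [h4 x hx, autFun_one hx]⟩
    rw [h2 x]
    exact hc (sc_apply h₁ hf x.2 (hP x.2))

variable [hp' : Fact p.Prime] [Finite S]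

/-- The full subsystem is saturated. -/
theorem DP.full_saturated (hS : IsPGroup p S) (hF : F.IsSaturated p) (h : DP F S₁ S₂ θ)
    (hR : ∀ P : Subgroup Ω, P ≤ S₁ → R.Hom P = F.Hom P) : R.IsSaturated p := by
  have hmor : ∀ {P f}, Mor R P f ↔ P ≤ S₁ ∧ Mor F P f := fun {P f} => mor_full h.l1 hR
  refine surj_saturated hS hF (isSurj_of_mor (α := θ) h.range (fun P f hf => ?_) fun P' f' hf' => ?_)
  · obtain ⟨g, hg, h3⟩ := mod_extend hS hF h.h2 hf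
    have hle := h.image_le hf.le
    refine ⟨g, hmor.2 ⟨by rw [← h.range]; exact imageAlong_le_range, hg.mono hle⟩, fun x hx => ?_⟩
    rw [h.val hg (hf.le hx) (le_sup_left (b := S₂) hx)]
    obtain ⟨t, ht, e⟩ := h3 x hx
    rw [e, tf_mul (hf.mem hx) (h.l2 ht)]
    have : tf θ t = 1 := by
      obtain ⟨b, hb, e⟩ := h.θ2 t (h.l2 ht)
      exact (h.uniq S₁.one_mem (h.θ1 t (h.l2 ht)) ht hb (by rw [one_mul]; exact e)).symm
    rw [this, mul_one]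
  · obtain ⟨hP', hf''⟩ := hmor.1 hf'
    obtain ⟨g, hg, h3⟩ := ext_dp hS hF h.d h.h1 h.h2 hP' hf''
    refine ⟨g, hg.mono h.preimage_le, fun x hx => ?_⟩
    obtain ⟨hxS, hxP⟩ := mem_preimageAlong.1 hx
    rw [← h.val hg hxS (h.preimage_le hx), h3 _ hxP]

theorem DP.le_cent (h : DP F S₁ S₂ θ) : S₁ ≤ centralizerIn S S₂ := fun x hx =>
  mem_centralizerIn.2 ⟨h.l1 hx, fun y hy => h.c x hx y hy⟩

/-- The centralizing subsystem is saturated. -/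
theorem DP.cent_saturated (hS : IsPGroup p S) (hF : F.IsSaturated p) (h : DP F S₁ S₂ θ)
    (hR' : ∀ P : Subgroup Ω, P ≤ S₁ → R'.Hom P = F.centralizerHom S₂ P) : R'.IsSaturated p := by
  have hmor : ∀ {P f}, Mor R' P f ↔ P ≤ S₁ ∧ ∃ g, Mor F (P ⊔ S₂) g ∧ (∀ x ∈ P, g x = f x) ∧
    ∀ x ∈ S₂, g x = x := fun {P f} => mor_cent h.le_cent h.h1 hR'
  have hCS : centralizerIn S S₂ ≤ S := inf_le_left
  haveI : Finite (centralizerIn S S₂) := finite_of_le hCS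
  have hfc : F.IsFullyCentralized S₂ := by
    refine ⟨h.l2, fun X hX => ?_⟩
    obtain ⟨f, hf, rfl⟩ := isConj_iff.1 hX
    rw [sc_img_eq h.h2 hf le_rfl]
  have hsat := centSys_saturated hS hF hfc
  have htf : ∀ x ∈ centralizerIn S S₂, tf (θ.comp (Subgroup.inclusion hCS)) x = tf θ x :=
    fun x hx => tf_comp_inclusion hCS hx
  refine surj_saturated (isPGroup_of_le hS hCS) hsat
    (isSurj_of_mor (α := θ.comp (Subgroup.inclusion hCS)) ?_ (fun P f hf => ?_) fun P' f' hf' => ?_)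
  · ext y
    constructor
    · rintro ⟨x, rfl⟩
      rw [← tf_coe, htf x x.2]; exact h.θ1 x (hCS x.2)
    · intro hy
      refine ⟨⟨y, h.le_cent hy⟩, ?_⟩
      rw [← tf_apply (θ.comp (Subgroup.inclusion hCS)) (h.le_cent hy), htf y (h.le_cent hy)]
      exact h.θ_id hy
  · obtain ⟨hPC, hfC, g, hg, h3, h4⟩ := mor_centSys.1 hf
    have hle : imageAlong (θ.comp (Subgroup.inclusion hCS)) P ≤ P ⊔ S₂ := by
      intro y hy
      obtain ⟨x, hxC, hx, rfl⟩ := mem_imageAlong.1 hy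
      rw [htf x hxC]
      exact h.image_le (hPC.trans hCS) (tf_mem_imageAlong (hPC.trans hCS) hx)
    have hle1 : imageAlong (θ.comp (Subgroup.inclusion hCS)) P ≤ S₁ := by
      intro y hy
      obtain ⟨x, hxC, hx, rfl⟩ := mem_imageAlong.1 hy
      rw [htf x hxC]; exact h.θ1 x (hCS hxC)
    refine ⟨g, hmor.2 ⟨hle1, g, hg.mono (sup_le hle le_sup_right), fun _ _ => rfl, h4⟩,
      fun x hx => ?_⟩
    rw [htf x (hPC hx), htf _ (hfC x hx), h.val hg (hCS (hPC hx)) (le_sup_left (b := S₂) hx), h3 x hx]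
  · obtain ⟨hP', g, hg, h3, h4⟩ := hmor.1 hf'
    have hle : preimageAlong (θ.comp (Subgroup.inclusion hCS)) P' ≤ P' ⊔ S₂ := by
      intro x hx
      obtain ⟨hxC, hxP⟩ := mem_preimageAlong.1 hx
      rw [htf x hxC] at hxP
      exact h.preimage_le (mem_preimageAlong.2 ⟨hCS hxC, hxP⟩)
    refine ⟨g, mor_centSys.2 ⟨preimageAlong_le, fun x hx => ?_, g, hg.mono (sup_le hle le_sup_right),
      fun _ _ => rfl, h4⟩, fun x hx => ?_⟩
    · have hxC : x ∈ centralizerIn S S₂ := preimageAlong_le hx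
      refine mem_centralizerIn.2 ⟨hg.mem (hle hx), fun y hy => ?_⟩
      have hy' : y ∈ P' ⊔ S₂ := le_sup_right (a := P') hy
      conv_lhs => rw [← h4 y hy]
      conv_rhs => rw [← h4 y hy]
      rw [← hg.mul (hle hx) hy', ← hg.mul hy' (hle hx), (mem_centralizerIn.1 hxC).2 y hy]
    · obtain ⟨hxC, hxP⟩ := mem_preimageAlong.1 hx
      have hgC : g x ∈ S := hg.mem (hle hx)
      have hxP' := hxP
      rw [htf x hxC] at hxP'
      have hgxC : g x ∈ centralizerIn S S₂ := by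
        refine mem_centralizerIn.2 ⟨hg.mem (hle hx), fun y hy => ?_⟩
        have hy' : y ∈ P' ⊔ S₂ := le_sup_right (a := P') hy
        conv_lhs => rw [← h4 y hy]
        conv_rhs => rw [← h4 y hy]
        rw [← hg.mul (hle hx) hy', ← hg.mul hy' (hle hx), (mem_centralizerIn.1 hxC).2 y hy]
      rw [htf _ hgxC, htf x hxC, ← h.val hg (hCS hxC) (hle hx), h3 _ hxP']

/-- Extension of automorphisms of one factor. -/
theorem DP.ext_top (hS : IsPGroup p S) (hF : F.IsSaturated p) (h : DP F S₁ S₂ θ)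
    {α : MulAut S₁} (hα : α ∈ F.autGroup S₁) :
    ∃ a, Mor F S a ∧ (∀ x ∈ S₁, a x = autFun α x) ∧ img S₂ a = S₂ ∧ img S₁ a = S₁ := by
  obtain ⟨a, ha, h1⟩ := ext_dp hS hF h.d h.h1 h.h2 le_rfl (mor_autFun h.l1 hα)
  rw [h.s] at ha
  exact ⟨a, ha, h1, sc_img_eq h.h2 ha h.l2, sc_img_eq h.h1 ha h.l1⟩

theorem DP.cent_inv (hS : IsPGroup p S) (hF : F.IsSaturated p) (h : DP F S₁ S₂ θ)
    (hR' : ∀ P : Subgroup Ω, P ≤ S₁ → R'.Hom P = F.centralizerHom S₂ P)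
    (hf : Mor R' P f) {α : MulAut S₁} (hα : α ∈ F.autGroup S₁) :
    ∃ g, Mor R' (img P (autFun α)) g ∧ ∀ x ∈ P, g (autFun α x) = autFun α (f x) := by
  have hmor : ∀ {P f}, Mor R' P f ↔ P ≤ S₁ ∧ ∃ g, Mor F (P ⊔ S₂) g ∧ (∀ x ∈ P, g x = f x) ∧
    ∀ x ∈ S₂, g x = x := fun {P f} => mor_cent h.le_cent h.h1 hR'
  obtain ⟨hP, g, hg, h3, h4⟩ := hmor.1 hf
  obtain ⟨a, ha, ha1, ha2, ha3⟩ := h.ext_top hS hF hα
  have hle : P ⊔ S₂ ≤ S := sup_le (hP.trans h.l1) h.l2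
  have ha' := ha.mono hle
  obtain ⟨i, hi, hi1, hi2, hi3⟩ := ha'.inverse
  have him : img (P ⊔ S₂) a = img P a ⊔ S₂ := by rw [ha'.img_sup, ha2]
  have himP : img P a = img P (autFun α) := img_congr fun x hx => ha1 x (hP hx)
  have hcomp : Mor F (img P (autFun α) ⊔ S₂) (fun x => a (g (i x))) := by
    rw [← himP, ← him]
    refine (hi.comp hg fun x hx => ?_).comp ha fun x hx => ?_
    · have : i x ∈ img (img (P ⊔ S₂) a) i := mem_img_of_mem hx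
      rwa [hi3] at this
    · have : i x ∈ img (img (P ⊔ S₂) a) i := mem_img_of_mem hx
      rw [hi3] at this
      exact hg.mem this
  have hval : ∀ x ∈ P, a (g (i (autFun α x))) = autFun α (f x) := by
    intro x hx
    rw [← ha1 x (hP hx), hi1 x (le_sup_left (b := S₂) hx), h3 x hx, ha1 _ ?_]
    have := sc_apply h.h1 (hg.mono le_sup_left : Mor F P g) hx (hP hx)
    rwa [h3 x hx] at this
  refine ⟨fun x => a (g (i x)), hmor.2 ⟨?_, _, hcomp, fun _ _ => rfl, fun x hx => ?_⟩, hval⟩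
  · rw [img_le_iff]; exact fun x hx => autFun_mem _ (hP hx)
  · rw [← ha2] at hx
    obtain ⟨y, hy, rfl⟩ := (ha.mono h.l2).mem_img.1 hx
    rw [hi1 y (le_sup_right (a := P) hy), h4 y hy]

theorem DP.cent_frattini (hS : IsPGroup p S) (hF : F.IsSaturated p) (h : DP F S₁ S₂ θ)
    (hR' : ∀ P : Subgroup Ω, P ≤ S₁ → R'.Hom P = F.centralizerHom S₂ P) (hP : P ≤ S₁)
    (hf : Mor F P f) :
    ∃ α ∈ F.autGroup S₁, ∃ g, Mor R' P g ∧ ∀ x ∈ P, f x = autFun α (g x) := by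
  have hmor : ∀ {P f}, Mor R' P f ↔ P ≤ S₁ ∧ ∃ g, Mor F (P ⊔ S₂) g ∧ (∀ x ∈ P, g x = f x) ∧
    ∀ x ∈ S₂, g x = x := fun {P f} => mor_cent h.le_cent h.h1 hR'
  obtain ⟨g, hg, h3⟩ := ext_dp hS hF h.d h.h1 h.h2 hP hf
  have hg2 : Mor F S₂ g := hg.mono le_sup_right
  obtain ⟨b, hb, h4⟩ := ext_dp hS hF (by rw [inf_comm]; exact h.d) h.h2 h.h1 le_rfl hg2
  rw [sup_comm, h.s] at hb
  have hb1 : img S₁ b = S₁ := sc_img_eq h.h1 hb h.l1
  have hbS : img S b = S := by rw [← h.s, (show Mor F (S₁ ⊔ S₂) b by rw [h.s]; exact hb).img_sup, hb1,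
    sc_img_eq h.h2 hb h.l2]
  obtain ⟨i, hi, hi1, hi2, hi3⟩ := hb.inverse
  rw [hbS] at hi hi2 hi3
  obtain ⟨α, hα, hα1⟩ := (hb.mono h.l1).exists_aut hb1
  have hcomp : Mor F (P ⊔ S₂) (fun x => i (g x)) := hg.comp hi fun x hx => hg.mem hx
  have h5 : ∀ x ∈ P, i (g x) ∈ S₁ := fun x hx => sc_apply (x := x) h.h1 hcomp (le_sup_left (b := S₂) hx) (hP hx)
  refine ⟨α, hα, fun x => i (g x), hmor.2 ⟨hP, _, hcomp, fun _ _ => rfl, fun x hx => ?_⟩, fun x hx => ?_⟩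
  · show i (g x) = x
    rw [← h4 x hx, hi1 x (h.l2 hx)]
  · rw [hα1 _ (h5 x hx), hi2 _ (hg.mem (le_sup_left (b := S₂) hx)), h3 x hx]

end

end Cfsg.Agent.H13
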