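import Cfsg.Agent.H13.Extra
import Cfsg.Agent.H13.Invol
import Cfsg.Agent.H23.Coprime2
import Cfsg.Prelude.Def_ClassificationK

set_option autoImplicit false
set_option linter.style.haveILetI false

/-!
# 2-groups of symplectic type and exponent 4
-/

namespace Cfsg.Agent.H13

open Subgroup
open scoped commutatorElement

variable {Q : Type*} [Group Q]

/-- In a group of symplectic type and exponent dividing 4 with central involution `z`, all squares
lie in `{1, z}`. -/
theorem symp_sq [Finite Q] (hQ : IsOfSymplecticType Q) (h4 : ∀ q : Q, q ^ 4 = 1) {z : Q}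
    (hz : z ∈ center Q) (hz2 : orderOf z = 2) (x : Q) : x * x = 1 ∨ x * x = z := by
  haveI : Fact (Nat.Prime 2) := ⟨Nat.prime_two⟩
  obtain ⟨K, hKc, h1, h2, h3⟩ := H23.exists_critical hQ.1
  -- `Z(K)` as a subgroup of `Q`
  set A : Subgroup Q := K ⊓ centralizer (K : Set Q) with hA
  have hAc : A.Characteristic := by
    have h5 : (centralizer (K : Set Q)).Characteristic := inferInstance
    rw [characteristic_iff_map_eq] at hKc h5 ⊢
    intro φ
    rw [hA, map_inf_eq _ _ _ φ.injective, hKc, h5]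
  have hAm : IsMulCommutative A := by
    refine ⟨⟨fun a b => Subtype.ext ?_⟩⟩
    exact (mem_centralizer_iff.1 b.2.2 a a.2.1)
  have hAcyc := hQ.2 A hAc hAm
  have hzA : z ∈ A := by
    have hzK : z ∈ centralizer (K : Set Q) := by
      rw [mem_centralizer_iff]
      intro k _
      exact mem_center_iff.1 hz k
    exact ⟨h2 hzK, hzK⟩
  -- `z` is the unique involution of `A`
  have huniq : ∀ w ∈ A, w * w = 1 → w = 1 ∨ w = z := by
    intro w hw hww
    by_cases hw1 : w = 1
    · exact Or.inl hw1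
    · right
      have hw2 : orderOf w = 2 := orderOf_eq_prime (by rw [pow_two]; exact hww) hw1
      have h5 := cyclic_unique_involution (A := A) (x := ⟨w, hw⟩) (y := ⟨z, hzA⟩)
        (by rw [← orderOf_coe]; exact hw2) (by rw [← orderOf_coe]; exact hz2)
      exact congrArg Subtype.val h5
  have hzc : ∀ q : Q, q * z = z * q := fun q => mem_center_iff.1 hz q
  have hzz : z * z = 1 := by rw [← pow_two, ← hz2]; exact pow_orderOf_eq_one z
  have h4' : ∀ q : Q, (q * q) * (q * q) = 1 := by
    intro q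
    have h5 := h4 q
    rw [show (4 : ℕ) = 2 + 2 from rfl, pow_add, pow_two] at h5
    exact h5
  -- squares of elements of `K`
  have hKsq : ∀ k ∈ K, k * k = 1 ∨ k * k = z := by
    intro k hk
    apply huniq _ ⟨mul_mem hk hk, ?_⟩ (h4' k)
    have h5 := h3 k hk
    rwa [pow_two] at h5
  have hKsqc : ∀ k ∈ K, ∀ q : Q, q * (k * k) = (k * k) * q := by
    intro k hk q
    rcases hKsq k hk with h | h <;> rw [h]
    · simp
    · exact hzc q
  -- commutators `[q, k]`
  have hcomm : ∀ q : Q, ∀ k ∈ K, q * k * q⁻¹ = k ∨ q * k * q⁻¹ = z * k := by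
    intro q k hk
    have h5 : ⁅q, k⁆ ∈ A := h1 (commutator_mem_commutator (mem_top q) hk)
    have h6 : q * k * q⁻¹ = ⁅q, k⁆ * k := by rw [commutatorElement_def]; group
    have h7 : ⁅q, k⁆ * ⁅q, k⁆ = 1 := by
      have h8 : (q * k * q⁻¹) * (q * k * q⁻¹) = k * k := by
        calc (q * k * q⁻¹) * (q * k * q⁻¹) = q * (k * k) * q⁻¹ := by group
          _ = (k * k) * q * q⁻¹ := by rw [hKsqc k hk q]
          _ = k * k := by group
      have h9 : k * ⁅q, k⁆ = ⁅q, k⁆ * k := mem_centralizer_iff.1 h5.2 k hk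
      rw [h6] at h8
      calc ⁅q, k⁆ * ⁅q, k⁆ = (⁅q, k⁆ * (⁅q, k⁆ * k) * k) * (k * k)⁻¹ := by group
        _ = (⁅q, k⁆ * (k * ⁅q, k⁆) * k) * (k * k)⁻¹ := by rw [h9]
        _ = (⁅q, k⁆ * k * (⁅q, k⁆ * k)) * (k * k)⁻¹ := by group
        _ = 1 := by rw [h8]; group
    rcases huniq _ h5 h7 with h | h
    · left; rw [h6, h, one_mul]
    · right; rw [h6, h]
  -- `x * x` centralizes `K`
  have hxx : x * x ∈ centralizer (K : Set Q) := by
    rw [mem_centralizer_iff]
    intro k hk
    have h5 : x * x * k * (x * x)⁻¹ = k := by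
      rcases hcomm x k hk with h | h
      · calc x * x * k * (x * x)⁻¹ = x * (x * k * x⁻¹) * x⁻¹ := by group
          _ = k := by rw [h, h]
      · calc x * x * k * (x * x)⁻¹ = x * (x * k * x⁻¹) * x⁻¹ := by group
          _ = x * z * k * x⁻¹ := by rw [h]; group
          _ = z * (x * k * x⁻¹) := by rw [hzc x]; group
          _ = (z * z) * k := by rw [h]; group
          _ = k := by rw [hzz, one_mul]
    calc k * (x * x) = x * x * k * (x * x)⁻¹ * (x * x) := by rw [h5]
      _ = x * x * k := by group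
  exact huniq _ ⟨h2 hxx, hxx⟩ (h4' x)

/-- Double centralizers when the commutators lie in a central subgroup of prime order. -/
theorem centralizer_centralizer_eq [Finite Q] {p : ℕ} [Fact p.Prime] (hQ : IsPGroup p Q)
    (Z : Subgroup Q) (hZ : Z ≤ center Q) (hc : commutator Q ≤ Z) (hcard : Nat.card Z = p)
    (B : Subgroup Q) (hB : center Q ≤ B) :
    centralizer ((centralizer (B : Set Q) : Subgroup Q) : Set Q) = B := by
  have hle : B ≤ centralizer ((centralizer (B : Set Q) : Subgroup Q) : Set Q) := by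
    rw [le_centralizer_iff]
  have key : ∀ D : Subgroup Q, (centralizer (D : Set Q)).index = (center Q).relIndex D := by
    intro D
    have h1 := pairing_relIndex_eq hQ Z hZ hc hcard (⊤ : Subgroup Q) D
    rw [relIndex_top_right] at h1
    rw [h1]
    congr 1
    rw [coe_top, centralizer_univ]
  have hcB : center Q ≤ centralizer (B : Set Q) := center_le_centralizer _
  have h1 := relIndex_mul_index hB
  have h2 := relIndex_mul_index hcB
  have h3 := key B
  have h4 := key (centralizer (B : Set Q))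
  have hpos : 0 < (center Q).relIndex B := Nat.pos_of_ne_zero (by
    rw [← h3]; exact index_ne_zero_of_finite)
  have h5 : B.index = (centralizer ((centralizer (B : Set Q) : Subgroup Q) : Set Q)).index := by
    rw [h4]
    rw [h3, ← h1] at h2
    rw [mul_comm] at h2
    exact (Nat.eq_of_mul_eq_mul_left hpos h2).symm
  have h6 := relIndex_mul_index hle
  rw [← h5] at h6
  have h7 : B.relIndex (centralizer ((centralizer (B : Set Q) : Subgroup Q) : Set Q)) = 1 := by
    have h8 : 0 < B.index := Nat.pos_of_ne_zero index_ne_zero_of_finite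
    exact Nat.eq_of_mul_eq_mul_right h8 (by rw [h6, one_mul])
  rw [relIndex_eq_one] at h7
  exact le_antisymm h7 hle

/-- Squares in `{1, ζ}` (`ζ` central of order 2): commutators lie in `{1, ζ}`. -/
theorem comm_of_sq {ζ : Q} (hζ : ∀ q : Q, q * ζ = ζ * q) (hζζ : ζ * ζ = 1)
    (hsq : ∀ x : Q, x * x = 1 ∨ x * x = ζ) (x y : Q) :
    x * y * x⁻¹ * y⁻¹ = 1 ∨ x * y * x⁻¹ * y⁻¹ = ζ := by
  have key : ∀ w : Q, ∃ s : Q, (s = 1 ∨ s = ζ) ∧ w * w = s ∧ w⁻¹ = w * s := by
    intro w
    rcases hsq w with h | h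
    · exact ⟨1, Or.inl rfl, h, by rw [mul_one]; exact inv_eq_of_mul_eq_one_left h⟩
    · refine ⟨ζ, Or.inr rfl, h, ?_⟩
      apply inv_eq_of_mul_eq_one_right
      rw [← mul_assoc, h, hζζ]
  obtain ⟨s₁, hs₁, -, h1⟩ := key x
  obtain ⟨s₂, hs₂, -, h2⟩ := key y
  obtain ⟨s₃, hs₃, h3, -⟩ := key (x * y)
  have hc : ∀ s : Q, (s = 1 ∨ s = ζ) → ∀ q, q * s = s * q := by
    rintro s (rfl | rfl) q
    · simp
    · exact hζ q
  have h4 : x * y * x⁻¹ * y⁻¹ = s₃ * s₁ * s₂ := by
    rw [h1, h2]
    calc x * y * (x * s₁) * (y * s₂) = x * y * x * (s₁ * y) * s₂ := by group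
      _ = x * y * x * (y * s₁) * s₂ := by rw [hc s₁ hs₁ y]
      _ = (x * y * (x * y)) * s₁ * s₂ := by group
      _ = s₃ * s₁ * s₂ := by rw [h3]
  rw [h4]
  rcases hs₁ with rfl | rfl <;> rcases hs₂ with rfl | rfl <;> rcases hs₃ with rfl | rfl <;>
    simp [hζζ]

/-- The key lemma on an involutory automorphism of a 2-group with squares in `{1, ζ}`. -/
theorem fixed_of_commutes_fixed [Finite Q] (hQ : IsPGroup 2 Q) {ζ : Q}
    (hζ : ∀ q : Q, q * ζ = ζ * q) (hζζ : ζ * ζ = 1) (hζ1 : ζ ≠ 1)
    (hsq : ∀ x : Q, x * x = 1 ∨ x * x = ζ)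
    (hcen : ∀ x ∈ center Q, x * x = 1 → x = 1 ∨ x = ζ)
    (τ : Q ≃* Q) (hττ : ∀ x, τ (τ x) = x)
    (hτ : ∀ x, τ x = ζ * x → τ x = x)
    (x : Q) (hx : ∀ b, τ b = b → x * b = b * x) : τ x = x := by
  haveI : Fact (Nat.Prime 2) := ⟨Nat.prime_two⟩
  have hτζ : τ ζ = ζ := by
    have h1 : τ ζ ∈ center Q := by
      rw [mem_center_iff]
      intro g
      obtain ⟨g', rfl⟩ := τ.surjective g
      rw [← map_mul, hζ, map_mul]
    rcases hcen _ h1 (by rw [← map_mul, hζζ, map_one]) with h | h
    · exfalso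
      apply hζ1
      apply τ.injective
      rw [h, map_one]
    · exact h
  -- the central subgroup `⟨ζ⟩`
  set Z : Subgroup Q := zpowers ζ with hZdef
  have hZmem : ∀ w, w ∈ Z ↔ w = 1 ∨ w = ζ := by
    intro w
    constructor
    · intro hw
      obtain ⟨n, rfl⟩ := mem_zpowers_iff.1 hw
      rcases Int.even_or_odd' n with ⟨m, rfl | rfl⟩
      · left; rw [zpow_mul, show ζ ^ (2 : ℤ) = 1 by rw [zpow_ofNat, pow_two, hζζ], one_zpow]
      · right
        rw [zpow_add, zpow_mul, show ζ ^ (2 : ℤ) = 1 by rw [zpow_ofNat, pow_two, hζζ], one_zpow,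
          one_mul, zpow_one]
    · rintro (rfl | rfl)
      · exact one_mem _
      · exact mem_zpowers _
  have hZ : Z ≤ center Q := by
    rw [hZdef, zpowers_le, mem_center_iff]
    exact hζ
  have hcomm := comm_of_sq hζ hζζ hsq
  have hc : commutator Q ≤ Z := by
    rw [commutator_def, commutator_le]
    intro a _ b _
    rw [hZmem, commutatorElement_def]
    exact hcomm a b
  have hcard : Nat.card Z = 2 := by
    rw [hZdef, Nat.card_zpowers]
    exact orderOf_eq_prime (by rw [pow_two, hζζ]) hζ1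
  -- commutators
  let β : Q → Q → Q := fun a b => a * b * a⁻¹ * b⁻¹
  have hβl : ∀ a a' b, β (a * a') b = β a b * β a' b := fun a a' b =>
    congrArg Subtype.val (map_mul (commHom Z hZ hc b) a a')
  have hβ2 : ∀ a b, β a b * β a b = 1 := by
    intro a b
    rcases hcomm a b with h | h
    · change (a * b * a⁻¹ * b⁻¹) * (a * b * a⁻¹ * b⁻¹) = 1
      rw [h, one_mul]
    · change (a * b * a⁻¹ * b⁻¹) * (a * b * a⁻¹ * b⁻¹) = 1
      rw [h, hζζ]
  have hβs : ∀ a b, β a b = β b a := by
    intro a b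
    have h1 : β a b = (β b a)⁻¹ := by
      change a * b * a⁻¹ * b⁻¹ = (b * a * b⁻¹ * a⁻¹)⁻¹
      group
    rw [h1]
    exact inv_eq_of_mul_eq_one_left (hβ2 b a)
  have hβr : ∀ a b b', β a (b * b') = β a b * β a b' := by
    intro a b b'
    rw [hβs, hβl, hβs b a, hβs b' a]
  have hβi : ∀ a b, β a b⁻¹ = β a b := by
    intro a b
    have h1 := hβr a b b⁻¹
    rw [mul_inv_cancel] at h1
    have h2 : β a 1 = 1 := by
      change a * 1 * a⁻¹ * 1⁻¹ = 1
      group
    rw [h2] at h1
    have h3 := hβ2 a b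
    calc β a b⁻¹ = (β a b * β a b) * β a b⁻¹ := by rw [h3, one_mul]
      _ = β a b * (β a b * β a b⁻¹) := by group
      _ = β a b := by rw [← h1, mul_one]
  have hβτ : ∀ a b, β (τ a) (τ b) = β a b := by
    intro a b
    have h1 : β (τ a) (τ b) = τ (β a b) := by
      change τ a * τ b * (τ a)⁻¹ * (τ b)⁻¹ = τ (a * b * a⁻¹ * b⁻¹)
      rw [map_mul, map_mul, map_mul, map_inv, map_inv]
    rw [h1]
    rcases hcomm a b with h | h
    · change τ (a * b * a⁻¹ * b⁻¹) = a * b * a⁻¹ * b⁻¹
      rw [h, map_one]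
    · change τ (a * b * a⁻¹ * b⁻¹) = a * b * a⁻¹ * b⁻¹
      rw [h, hτζ]
  have hβ1 : ∀ a b, β a b = 1 ↔ a * b = b * a := by
    intro a b
    change a * b * a⁻¹ * b⁻¹ = 1 ↔ _
    rw [mul_inv_eq_one, mul_inv_eq_iff_eq_mul]
  -- central elements are fixed
  have hfixcen : ∀ c ∈ center Q, τ c = c := by
    intro c hc
    have h1 : τ c ∈ center Q := by
      rw [mem_center_iff]
      intro g
      obtain ⟨g', rfl⟩ := τ.surjective g
      rw [← map_mul, mem_center_iff.1 hc, map_mul]
    have h2 : τ c * τ c = c * c := by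
      rw [← map_mul]
      rcases hsq c with h | h <;> rw [h]
      · exact map_one τ
      · exact hτζ
    have h3 : (τ c * c⁻¹) * (τ c * c⁻¹) = 1 := by
      calc (τ c * c⁻¹) * (τ c * c⁻¹) = τ c * (c⁻¹ * τ c) * c⁻¹ := by group
        _ = τ c * (τ c * c⁻¹) * c⁻¹ := by rw [mem_center_iff.1 h1 c⁻¹]
        _ = (τ c * τ c) * (c * c)⁻¹ := by group
        _ = 1 := by rw [h2]; group
    rcases hcen _ (mul_mem h1 (inv_mem hc)) h3 with h | h
    · exact mul_inv_eq_one.1 h
    · exact hτ c (mul_inv_eq_iff_eq_mul.1 h)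
  -- the elements `w (τ w)⁻¹` are fixed
  have hfixc : ∀ w, τ (w * (τ w)⁻¹) = w * (τ w)⁻¹ := by
    intro w
    have h1 : τ (w * (τ w)⁻¹) = (w * (τ w)⁻¹)⁻¹ := by
      rw [map_mul, map_inv, hττ]
      group
    rcases hsq (w * (τ w)⁻¹) with h | h
    · rw [h1]
      exact inv_eq_of_mul_eq_one_left h
    · apply hτ
      rw [h1]
      apply inv_eq_of_mul_eq_one_left
      rw [mul_assoc, h, hζζ]
  -- the subgroup of fixed points
  let B : Subgroup Q :=
    { carrier := {b | τ b = b}
      mul_mem' := fun {a b} ha hb => by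
        change τ (a * b) = a * b
        rw [map_mul, show τ a = a from ha, show τ b = b from hb]
      one_mem' := map_one τ
      inv_mem' := fun {a} ha => by
        change τ a⁻¹ = a⁻¹
        rw [map_inv, show τ a = a from ha] }
  set M : Subgroup Q := closure (Set.range fun w : Q => w * (τ w)⁻¹) ⊔ center Q with hM
  have hMB : M ≤ B := by
    apply sup_le
    · rw [closure_le]
      rintro _ ⟨w, rfl⟩
      exact hfixc w
    · exact fun c hc => hfixcen c hc
  have hCM : centralizer (M : Set Q) = B := by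
    apply le_antisymm
    · intro y hy
      have h1 : ∀ w, β (y * τ y) w = 1 := by
        intro w
        have h2 : w * (τ w)⁻¹ ∈ M := mem_sup_left (subset_closure ⟨w, rfl⟩)
        have h3 : β y (w * (τ w)⁻¹) = 1 := by
          rw [hβ1]
          exact (mem_centralizer_iff.1 hy _ h2).symm
        have h4 : β (τ y) w = β y (τ w) := by
          rw [← hβτ (τ y) w, hττ]
        rw [hβl, h4, ← h3, hβr, hβi]
      have h2 : y * τ y ∈ center Q := by
        rw [mem_center_iff]
        intro g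
        exact ((hβ1 _ _).1 (h1 g)).symm
      have h3 : y * (τ y)⁻¹ ∈ center Q := by
        have h4 : y * (τ y)⁻¹ = y * τ y * (τ y * τ y)⁻¹ := by group
        rw [h4]
        apply mul_mem h2 (inv_mem _)
        rcases hsq (τ y) with h | h <;> rw [h]
        · exact one_mem _
        · rw [mem_center_iff]; exact hζ
      have h4 : (y * (τ y)⁻¹) * (y * (τ y)⁻¹) = 1 := by
        have h5 := hfixcen _ h3
        rw [map_mul, map_inv, hττ] at h5
        calc (y * (τ y)⁻¹) * (y * (τ y)⁻¹) = (y * (τ y)⁻¹) * (τ y * y⁻¹) := by rw [h5]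
          _ = 1 := by group
      have h5 : τ y * y⁻¹ = (y * (τ y)⁻¹)⁻¹ := by group
      rcases hcen _ h3 h4 with h | h
      · exact (mul_inv_eq_one.1 h).symm
      · apply hτ
        rw [← mul_inv_eq_iff_eq_mul, h5, h]
        exact inv_eq_of_mul_eq_one_left hζζ
    · intro b hb
      have hb' : τ b = b := hb
      have h1 : M ≤ centralizer ({b} : Set Q) := by
        apply sup_le
        · rw [closure_le]
          rintro _ ⟨w, rfl⟩
          change w * (τ w)⁻¹ ∈ centralizer ({b} : Set Q)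
          rw [mem_centralizer_singleton_iff]
          symm
          rw [← hβ1, hβr, hβi]
          have h2 : β b (τ w) = β b w := by
            conv_lhs => rw [← hb']
            exact hβτ b w
          rw [h2, hβ2]
        · exact center_le_centralizer _
      rw [mem_centralizer_iff]
      intro m hm
      exact mem_centralizer_singleton_iff.1 (h1 hm)
  have h1 := centralizer_centralizer_eq hQ Z hZ hc hcard M le_sup_right
  rw [hCM] at h1
  have h2 : x ∈ centralizer (B : Set Q) := by
    rw [mem_centralizer_iff]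
    intro b hb
    exact (hx b hb).symm
  rw [h1] at h2
  exact hMB h2

end Cfsg.Agent.H13
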