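import Cfsg.Agent.H13.Symp4

set_option autoImplicit false
set_option linter.style.haveILetI false

/-!
# Conjugates of a central involution in a 2-group of symplectic type and exponent 4
-/

namespace Cfsg.Agent.H13

open Subgroup
open scoped commutatorElement

variable {G : Type*} [Group G]

/-- The data of the involution `z` and the symplectic type group `Q` of its centralizer. -/
structure SD (z : G) (Q : Subgroup G) : Prop where
  zz : z * z = 1
  z1 : z ≠ 1
  zQ : z ∈ Q
  cz : ∀ x ∈ Q, x * z = z * x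
  sq : ∀ x ∈ Q, x * x = 1 ∨ x * x = z
  cen : ∀ x ∈ Q, (∀ y ∈ Q, x * y = y * x) → x * x = 1 → x = 1 ∨ x = z
  norm : ∀ c, c * z = z * c → ∀ x ∈ Q, c * x * c⁻¹ ∈ Q
  self : ∀ c, c * z = z * c → (∀ x ∈ Q, c * x = x * c) → c ∈ Q
  two : (∀ c, c * z = z * c → c ^ 32 = 1) → ∀ c, c * z = z * c → c ∈ Q

variable {z z' : G} {Q Q' : Subgroup G}

theorem SD.comm (h : SD z Q) {x y : G} (hx : x ∈ Q) (hy : y ∈ Q) :
    x * y * x⁻¹ * y⁻¹ = 1 ∨ x * y * x⁻¹ * y⁻¹ = z := by
  have h1 := comm_of_sq (Q := Q) (ζ := ⟨z, h.zQ⟩) (fun q => Subtype.ext (h.cz q q.2))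
    (Subtype.ext h.zz) (fun x => by
      rcases h.sq x x.2 with h2 | h2
      · exact Or.inl (Subtype.ext h2)
      · exact Or.inr (Subtype.ext h2)) ⟨x, hx⟩ ⟨y, hy⟩
  rcases h1 with h2 | h2
  · exact Or.inl (congrArg Subtype.val h2)
  · exact Or.inr (congrArg Subtype.val h2)

theorem SD.conj_or (h : SD z Q) {x y : G} (hx : x ∈ Q) (hy : y ∈ Q) :
    x * y * x⁻¹ = y ∨ x * y * x⁻¹ = z * y := by
  rcases h.comm hx hy with h1 | h1
  · left; exact mul_inv_eq_one.1 h1
  · right; exact mul_inv_eq_iff_eq_mul.1 h1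

/-- `z' ∈ Q` is moved by some element of `Q`. -/
theorem SD.exists_swap (h : SD z Q) (hz' : z' ∈ Q) (z'2 : z' * z' = 1) (z'1 : z' ≠ 1)
    (hne : z' ≠ z) : ∃ q ∈ Q, q * z' * q⁻¹ = z * z' := by
  by_contra hn
  push Not at hn
  have h1 : ∀ y ∈ Q, z' * y = y * z' := by
    intro y hy
    rcases h.conj_or hy hz' with h2 | h2
    · exact (mul_inv_eq_iff_eq_mul.1 h2).symm
    · exact absurd h2 (hn y hy)
  rcases h.cen z' hz' h1 z'2 with h2 | h2
  · exact z'1 h2
  · exact hne h2

/-- elements commuting with `C_Q(z')` and with `q` are central. -/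
theorem SD.cenA (h : SD z Q) (hz' : z' ∈ Q) {q : G} (hq : q ∈ Q) (hqz : q * z' * q⁻¹ = z * z')
    {w : G} (hA : ∀ a ∈ Q, a * z' = z' * a → w * a = a * w) (hwq : w * q = q * w) :
    ∀ y ∈ Q, w * y = y * w := by
  intro y hy
  rcases h.conj_or hy hz' with h2 | h2
  · exact hA y hy (mul_inv_eq_iff_eq_mul.1 h2)
  · have h3 : (q⁻¹ * y) * z' = z' * (q⁻¹ * y) := by
      have h4 : y * z' * y⁻¹ = q * z' * q⁻¹ := by rw [h2, hqz]
      calc (q⁻¹ * y) * z' = q⁻¹ * (y * z' * y⁻¹) * y := by group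
        _ = q⁻¹ * (q * z' * q⁻¹) * y := by rw [h4]
        _ = z' * (q⁻¹ * y) := by group
    have h4 := hA _ (mul_mem (inv_mem hq) hy) h3
    calc w * y = w * q * (q⁻¹ * y) := by group
      _ = q * (w * (q⁻¹ * y)) := by rw [hwq]; group
      _ = q * ((q⁻¹ * y) * w) := by rw [h4]
      _ = y * w := by group

/-- involutions of `Q` commuting with `C_Q(z')` lie in `⟨z, z'⟩`. -/
theorem SD.mem_four (h : SD z Q) (hz' : z' ∈ Q) (z'2 : z' * z' = 1) {q : G} (hq : q ∈ Q)
    (hqz : q * z' * q⁻¹ = z * z') {x : G} (hx : x ∈ Q) (hxx : x * x = 1)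
    (hA : ∀ a ∈ Q, a * z' = z' * a → x * a = a * x) :
    x = 1 ∨ x = z ∨ x = z' ∨ x = z' * z := by
  rcases h.conj_or hq hx with h1 | h1
  · have h2 := h.cen x hx (h.cenA hz' hq hqz hA (mul_inv_eq_iff_eq_mul.1 h1).symm) hxx
    rcases h2 with h2 | h2
    · exact Or.inl h2
    · exact Or.inr (Or.inl h2)
  · have hxz' : x * z' = z' * x := hA z' hz' rfl
    have h2 : ∀ y ∈ Q, (z' * x) * y = y * (z' * x) := by
      apply h.cenA hz' hq hqz
      · intro a ha haz
        calc z' * x * a = z' * (x * a) := by group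
          _ = z' * (a * x) := by rw [hA a ha haz]
          _ = (z' * a) * x := by group
          _ = (a * z') * x := by rw [haz]
          _ = a * (z' * x) := by group
      · have h3 : q * (z' * x) * q⁻¹ = z' * x := by
          calc q * (z' * x) * q⁻¹ = (q * z' * q⁻¹) * (q * x * q⁻¹) := by group
            _ = (z * z') * (z * x) := by rw [hqz, h1]
            _ = z * (z' * z) * x := by group
            _ = z * (z * z') * x := by rw [h.cz z' hz']
            _ = (z * z) * (z' * x) := by group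
            _ = z' * x := by rw [h.zz, one_mul]
        exact (mul_inv_eq_iff_eq_mul.1 h3).symm
    have h3 : (z' * x) * (z' * x) = 1 := by
      calc (z' * x) * (z' * x) = z' * (x * z') * x := by group
        _ = z' * (z' * x) * x := by rw [hxz']
        _ = (z' * z') * (x * x) := by group
        _ = 1 := by rw [z'2, hxx, one_mul]
    have hz'i : z'⁻¹ = z' := inv_eq_of_mul_eq_one_left z'2
    rcases h.cen _ (mul_mem hz' hx) h2 h3 with h4 | h4
    · right; right; left
      rw [mul_eq_one_iff_inv_eq] at h4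
      rw [← h4, hz'i]
    · right; right; right
      rw [← h4, ← mul_assoc, z'2, one_mul]

/-- The intersection of `Q` and `Q'` when `z ∉ Q'`. -/
theorem SD.inter (h : SD z Q) (h' : SD z' Q') (hz' : z' ∈ Q) (hne : z' ≠ z) (hz : z ∉ Q')
    {x : G} (hx : x ∈ Q) (hx' : x ∈ Q') : x = 1 ∨ x = z' := by
  obtain ⟨q, hq, hqz⟩ := h.exists_swap hz' h'.zz h'.z1 hne
  have hxx : x * x = 1 := by
    rcases h.sq x hx with h1 | h1
    · exact h1
    · exact absurd (h1 ▸ mul_mem hx' hx') hz
  have hA : ∀ a ∈ Q, a * z' = z' * a → x * a = a * x := by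
    intro a ha haz
    rcases h.conj_or ha hx with h1 | h1
    · exact (mul_inv_eq_iff_eq_mul.1 h1).symm
    · exfalso
      apply hz
      have h2 := h'.norm a haz x hx'
      rw [h1] at h2
      have h3 := mul_mem h2 (inv_mem hx')
      rwa [mul_inv_cancel_right] at h3
  rcases h.mem_four hz' h'.zz hq hqz hx hxx hA with h1 | h1 | h1 | h1
  · exact Or.inl h1
  · exact absurd (h1 ▸ hx') hz
  · exact Or.inr h1
  · exfalso
    apply hz
    have h2 := mul_mem h'.zQ hx'
    rwa [h1, ← mul_assoc, h'.zz, one_mul] at h2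

theorem SD.aba (h : SD z Q) (h' : SD z' Q') (hz' : z' ∈ Q) (hne : z' ≠ z) (hz : z ∉ Q')
    {a b : G} (ha : a ∈ Q) (haz : a * z' = z' * a) (hb : b ∈ Q') (hbz : b * z = z * b) :
    a * b * a⁻¹ = b ∨ a * b * a⁻¹ = z' * b := by
  have h1 : a * b * a⁻¹ * b⁻¹ ∈ Q := by
    have h2 := mul_mem ha (h.norm b hbz _ (inv_mem ha))
    convert h2 using 1
    group
  have h2 : a * b * a⁻¹ * b⁻¹ ∈ Q' := mul_mem (h'.norm a haz b hb) (inv_mem hb)
  rcases h.inter h' hz' hne hz h1 h2 with h3 | h3
  · left; exact mul_inv_eq_one.1 h3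
  · right; exact mul_inv_eq_iff_eq_mul.1 h3

/-- Step 3: no element of `Q'` moves `z` to `z' z`. -/
theorem SD.noswap (h : SD z Q) (h' : SD z' Q') (hz' : z' ∈ Q) (hne : z' ≠ z) (hz : z ∉ Q')
    (hconj : ∀ k, k * z * k⁻¹ = z' → ∀ x ∈ Q, k * x * k⁻¹ ∈ Q')
    {x : G} (hx : x ∈ Q') : z * x * z⁻¹ ≠ z' * x := by
  intro hh
  obtain ⟨q, hq, hqz⟩ := h.exists_swap hz' h'.zz h'.z1 hne
  have hzz' : z' * z = z * z' := h.cz z' hz'
  have hxz' : x * z' = z' * x := h'.cz x hx
  set y := x⁻¹ with hy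
  have hyz' : y * z' * y⁻¹ = z' := by
    rw [hy, inv_inv]
    calc x⁻¹ * z' * x = x⁻¹ * (z' * x) := by group
      _ = x⁻¹ * (x * z') := by rw [hxz']
      _ = z' := by group
  have hyz : y * z * y⁻¹ = z' * z := by
    rw [hy, inv_inv]
    calc x⁻¹ * z * x = x⁻¹ * (z * x * z⁻¹) * z := by group
      _ = x⁻¹ * (z' * x) * z := by rw [hh]
      _ = x⁻¹ * (x * z') * z := by rw [hxz']
      _ = z' * z := by group
  have hqz0 : q * z * q⁻¹ = z := by
    rw [h.cz q hq]; group
  have h1 : (y * q * y) * z * (y * q * y)⁻¹ = z' := by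
    calc (y * q * y) * z * (y * q * y)⁻¹ = y * (q * (y * z * y⁻¹) * q⁻¹) * y⁻¹ := by group
      _ = y * ((q * z' * q⁻¹) * (q * z * q⁻¹)) * y⁻¹ := by rw [hyz]; group
      _ = y * (z * (z' * z)) * y⁻¹ := by rw [hqz, hqz0]; group
      _ = y * (z * z) * z' * y⁻¹ := by rw [hzz']; group
      _ = y * z' * y⁻¹ := by rw [h.zz]; group
      _ = z' := hyz'
  have h2 : (y * q * y) * z' * (y * q * y)⁻¹ = z := by
    calc (y * q * y) * z' * (y * q * y)⁻¹ = y * (q * (y * z' * y⁻¹) * q⁻¹) * y⁻¹ := by group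
      _ = y * (q * z' * q⁻¹) * y⁻¹ := by rw [hyz']
      _ = (y * z * y⁻¹) * (y * z' * y⁻¹) := by rw [hqz]; group
      _ = z' * z * z' := by rw [hyz, hyz']
      _ = z * (z' * z') := by rw [hzz']; group
      _ = z := by rw [h'.zz, mul_one]
  have h3 := hconj _ h1 z' hz'
  rw [h2] at h3
  exact hz h3

/-- Step 6. -/
theorem SD.fixed [Finite G] (h : SD z Q) (h' : SD z' Q') (hQ' : IsPGroup 2 Q') (hz' : z' ∈ Q)
    (hne : z' ≠ z) (hz : z ∉ Q')
    (hconj : ∀ k, k * z * k⁻¹ = z' → ∀ x ∈ Q, k * x * k⁻¹ ∈ Q')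
    {x : G} (hx : x ∈ Q') (hxb : ∀ b ∈ Q', b * z = z * b → x * b = b * x) : x * z = z * x := by
  have hzz' : z * z' = z' * z := (h.cz z' hz').symm
  have hzi : z⁻¹ = z := inv_eq_of_mul_eq_one_left h.zz
  let τ : Q' ≃* Q' :=
    { toFun := fun w => ⟨z * w * z⁻¹, h'.norm z hzz' w w.2⟩
      invFun := fun w => ⟨z * w * z⁻¹, h'.norm z hzz' w w.2⟩
      left_inv := fun w => Subtype.ext (by
        change z * (z * (w : G) * z⁻¹) * z⁻¹ = w
        rw [hzi]
        calc z * (z * (w : G) * z) * z = (z * z) * w * (z * z) := by group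
          _ = w := by rw [h.zz]; group)
      right_inv := fun w => Subtype.ext (by
        change z * (z * (w : G) * z⁻¹) * z⁻¹ = w
        rw [hzi]
        calc z * (z * (w : G) * z) * z = (z * z) * w * (z * z) := by group
          _ = w := by rw [h.zz]; group)
      map_mul' := fun a b => Subtype.ext (by
        change z * ((a : G) * b) * z⁻¹ = z * a * z⁻¹ * (z * b * z⁻¹)
        group) }
  have hτv : ∀ w : Q', (τ w : G) = z * w * z⁻¹ := fun w => rfl
  have h1 := fixed_of_commutes_fixed (Q := Q') hQ' (ζ := ⟨z', h'.zQ⟩)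
    (fun q => Subtype.ext (h'.cz q q.2)) (Subtype.ext h'.zz)
    (fun h2 => h'.z1 (congrArg Subtype.val h2))
    (fun w => by
      rcases h'.sq w w.2 with h2 | h2
      · exact Or.inl (Subtype.ext h2)
      · exact Or.inr (Subtype.ext h2))
    (fun w hw hww => by
      rcases h'.cen w w.2 (fun y hy => by
        have := mem_center_iff.1 hw ⟨y, hy⟩
        exact (congrArg Subtype.val this).symm) (congrArg Subtype.val hww) with h2 | h2
      · exact Or.inl (Subtype.ext h2)
      · exact Or.inr (Subtype.ext h2))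
    τ (fun w => τ.left_inv w)
    (fun w hw => absurd (congrArg Subtype.val hw) (h.noswap h' hz' hne hz hconj w.2))
    ⟨x, hx⟩ (fun b hb => Subtype.ext (hxb b b.2 (by
      have h2 := congrArg Subtype.val hb
      rw [hτv, mul_inv_eq_iff_eq_mul] at h2
      exact h2.symm)))
  have h2 := congrArg Subtype.val h1
  rw [hτv, mul_inv_eq_iff_eq_mul] at h2
  exact h2.symm

/-- Step 7: if some element of `C_Q(z')` squares to `z`. -/
theorem SD.step7 [Finite G] (h : SD z Q) (h' : SD z' Q') (hQ' : IsPGroup 2 Q') (hz' : z' ∈ Q)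
    (hne : z' ≠ z) (hz : z ∉ Q')
    (hconj : ∀ k, k * z * k⁻¹ = z' → ∀ x ∈ Q, k * x * k⁻¹ ∈ Q')
    {a : G} (ha : a ∈ Q) (haz : a * z' = z' * a) (haa : a * a = z) : False := by
  have hzz' : z * z' = z' * z := (h.cz z' hz').symm
  apply hz
  apply h'.self z hzz'
  intro v hv
  set c := v⁻¹ * (a * v * a⁻¹) with hc
  have hava : a * v * a⁻¹ = v * c := by rw [hc]; group
  have hcQ' : c ∈ Q' := mul_mem (inv_mem hv) (h'.norm a haz v hv)
  have haiz : a⁻¹ * z' = z' * a⁻¹ := by
    calc a⁻¹ * z' = a⁻¹ * (z' * a) * a⁻¹ := by group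
      _ = a⁻¹ * (a * z') * a⁻¹ := by rw [haz]
      _ = z' * a⁻¹ := by group
  have hcz : c * z = z * c := by
    apply h.fixed h' hQ' hz' hne hz hconj hcQ'
    intro b hb hbz
    -- `(v c) b (v c)⁻¹ = v b v⁻¹`
    have h1 : (a * v * a⁻¹) * b * (a * v * a⁻¹)⁻¹ = v * b * v⁻¹ := by
      have h2 : (a * v * a⁻¹) * b * (a * v * a⁻¹)⁻¹ =
          a * (v * (a⁻¹ * b * a⁻¹⁻¹) * v⁻¹) * a⁻¹ := by group
      rw [h2]
      have h3 := h.aba h' hz' hne hz (inv_mem ha) haiz hb hbz
      have h4 : a * (v * b * v⁻¹) * a⁻¹ = (v * b * v⁻¹) * b⁻¹ * (a * b * a⁻¹) := by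
        rcases h'.conj_or hv hb with h5 | h5
        · rw [h5]; group
        · rw [h5]
          calc a * (z' * b) * a⁻¹ = (a * z') * b * a⁻¹ := by group
            _ = (z' * a) * b * a⁻¹ := by rw [haz]
            _ = z' * b * b⁻¹ * (a * b * a⁻¹) := by group
      rcases h3 with h3 | h3
      · rw [h3, h4]
        have h5 : a * b * a⁻¹ = b := by
          calc a * b * a⁻¹ = a * (a⁻¹ * b * a⁻¹⁻¹) * a⁻¹ := by rw [h3]
            _ = b := by group
        rw [h5]; group
      · rw [h3]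
        have h5 : a * b * a⁻¹ = z' * b := by
          have h6 : b = a * (z' * b) * a⁻¹ := by rw [← h3]; group
          have h7 : a * (z' * b) * a⁻¹ = z' * (a * b * a⁻¹) := by
            calc a * (z' * b) * a⁻¹ = (a * z') * b * a⁻¹ := by group
              _ = (z' * a) * b * a⁻¹ := by rw [haz]
              _ = z' * (a * b * a⁻¹) := by group
          rw [h7] at h6
          calc a * b * a⁻¹ = (z' * z') * (a * b * a⁻¹) := by rw [h'.zz, one_mul]
            _ = z' * (z' * (a * b * a⁻¹)) := by group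
            _ = z' * b := by rw [← h6]
        have h8 : a * (v * (z' * b) * v⁻¹) * a⁻¹ = z' * (a * (v * b * v⁻¹) * a⁻¹) := by
          calc a * (v * (z' * b) * v⁻¹) * a⁻¹ = a * ((v * z') * b * v⁻¹) * a⁻¹ := by group
            _ = a * ((z' * v) * b * v⁻¹) * a⁻¹ := by rw [h'.cz v hv]
            _ = (a * z') * (v * b * v⁻¹) * a⁻¹ := by group
            _ = (z' * a) * (v * b * v⁻¹) * a⁻¹ := by rw [haz]
            _ = _ := by group
        have hvb : v * b * v⁻¹ ∈ Q' := mul_mem (mul_mem hv hb) (inv_mem hv)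
        rw [h8, h4, h5]
        calc z' * (v * b * v⁻¹ * b⁻¹ * (z' * b)) =
            z' * ((v * b * v⁻¹ * b⁻¹) * z') * b := by group
          _ = z' * (z' * (v * b * v⁻¹ * b⁻¹)) * b := by
              rw [h'.cz _ (mul_mem hvb (inv_mem hb))]
          _ = (z' * z') * (v * b * v⁻¹) := by group
          _ = v * b * v⁻¹ := by rw [h'.zz, one_mul]
    rw [hava] at h1
    calc c * b = v⁻¹ * (v * c * b * (v * c)⁻¹) * v * c := by group
      _ = v⁻¹ * (v * b * v⁻¹) * v * c := by rw [h1]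
      _ = b * c := by group
  -- `z v z⁻¹ ∈ {v, z' v}`
  have h1 : z * v * z⁻¹ = v * c * (a * c * a⁻¹) := by
    calc z * v * z⁻¹ = a * (a * v * a⁻¹) * a⁻¹ := by rw [← haa]; group
      _ = a * (v * c) * a⁻¹ := by rw [hava]
      _ = (a * v * a⁻¹) * (a * c * a⁻¹) := by group
      _ = v * c * (a * c * a⁻¹) := by rw [hava]
  have h2 : z * v * z⁻¹ = v ∨ z * v * z⁻¹ = z' * v := by
    rw [h1]
    rcases h.aba h' hz' hne hz ha haz hcQ' hcz with h3 | h3 <;>
      rcases h'.sq c hcQ' with h4 | h4 <;> rw [h3]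
    · left; rw [mul_assoc, h4, mul_one]
    · right; rw [mul_assoc, h4, h'.cz v hv]
    · right
      calc v * c * (z' * c) = v * (c * z') * c := by group
        _ = v * (z' * c) * c := by rw [h'.cz c hcQ']
        _ = (v * z') * (c * c) := by group
        _ = z' * v := by rw [h4, mul_one, h'.cz v hv]
    · left
      calc v * c * (z' * c) = v * (c * z') * c := by group
        _ = v * (z' * c) * c := by rw [h'.cz c hcQ']
        _ = (v * z') * (c * c) := by group
        _ = v * (z' * z') := by rw [h4]; group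
        _ = v := by rw [h'.zz, mul_one]
  rcases h2 with h2 | h2
  · exact mul_inv_eq_iff_eq_mul.1 h2
  · exact absurd h2 (h.noswap h' hz' hne hz hconj hv)

/-- Step 8: if all elements of `C_Q(z')` square to 1 then `C_G(z)` is a 2-group. -/
theorem SD.step8 (h : SD z Q) (hz' : z' ∈ Q) (z'2 : z' * z' = 1) (z'1 : z' ≠ 1) (hne : z' ≠ z)
    (hA : ∀ a ∈ Q, a * z' = z' * a → a * a = 1) : ∀ c, c * z = z * c → c ^ 32 = 1 := by
  have hzz' : z * z' = z' * z := (h.cz z' hz').symm
  -- a swap squaring to `z`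
  obtain ⟨q, hq, hqz, hqq⟩ : ∃ q ∈ Q, q * z' * q⁻¹ = z * z' ∧ q * q = z := by
    obtain ⟨q, hq, hqz⟩ := h.exists_swap hz' z'2 z'1 hne
    rcases h.sq q hq with h1 | h1
    · refine ⟨z' * q, mul_mem hz' hq, ?_, ?_⟩
      · calc z' * q * z' * (z' * q)⁻¹ = z' * (q * z' * q⁻¹) * z'⁻¹ := by group
          _ = z' * (z * z') * z'⁻¹ := by rw [hqz]
          _ = z' * z := by group
          _ = z * z' := hzz'.symm
      · have h2 : q * z' = z * z' * q := mul_inv_eq_iff_eq_mul.1 hqz
        calc z' * q * (z' * q) = z' * (q * z') * q := by group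
          _ = z' * (z * z' * q) * q := by rw [h2]
          _ = (z' * z) * z' * (q * q) := by group
          _ = (z * z') * z' * 1 := by rw [h1, hzz']
          _ = z * (z' * z') := by group
          _ = z := by rw [z'2, mul_one]
    · exact ⟨q, hq, hqz, h1⟩
  have hqz2 : q * z' = z * z' * q := mul_inv_eq_iff_eq_mul.1 hqz
  have hzq : q * z = z * q := h.cz q hq
  -- commuting
  have hAcomm : ∀ a ∈ Q, a * z' = z' * a → ∀ b ∈ Q, b * z' = z' * b → a * b = b * a := by
    intro a ha haz b hb hbz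
    have h1 := hA a ha haz
    have h2 := hA b hb hbz
    have h3 := hA (a * b) (mul_mem ha hb) (by
      calc a * b * z' = a * (b * z') := by group
        _ = a * (z' * b) := by rw [hbz]
        _ = (a * z') * b := by group
        _ = z' * (a * b) := by rw [haz]; group)
    have h4 : a⁻¹ = a := inv_eq_of_mul_eq_one_left h1
    have h5 : b⁻¹ = b := inv_eq_of_mul_eq_one_left h2
    have h6 : (a * b)⁻¹ = a * b := inv_eq_of_mul_eq_one_left h3
    rw [mul_inv_rev, h4, h5] at h6
    exact h6.symm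
  have hA4 : ∀ a ∈ Q, a * z' = z' * a → a = 1 ∨ a = z ∨ a = z' ∨ a = z' * z := fun a ha haz =>
    h.mem_four hz' z'2 hq hqz ha (hA a ha haz) (fun b hb hbz => hAcomm a ha haz b hb hbz)
  have hcov : ∀ y ∈ Q, (y = 1 ∨ y = z ∨ y = z' ∨ y = z' * z) ∨
      (y = q ∨ y = q * z ∨ y = q * z' ∨ y = q * (z' * z)) := by
    intro y hy
    rcases h.conj_or hy hz' with h2 | h2
    · exact Or.inl (hA4 y hy (mul_inv_eq_iff_eq_mul.1 h2))
    · right
      have h3 : (q⁻¹ * y) * z' = z' * (q⁻¹ * y) := by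
        have h4 : y * z' * y⁻¹ = q * z' * q⁻¹ := by rw [h2, hqz]
        calc (q⁻¹ * y) * z' = q⁻¹ * (y * z' * y⁻¹) * y := by group
          _ = q⁻¹ * (q * z' * q⁻¹) * y := by rw [h4]
          _ = z' * (q⁻¹ * y) := by group
      have h4 : y = q * (q⁻¹ * y) := by group
      rcases hA4 _ (mul_mem (inv_mem hq) hy) h3 with h5 | h5 | h5 | h5 <;> rw [h5] at h4
      · left; rw [h4, mul_one]
      · right; left; exact h4
      · right; right; left; exact h4
      · right; right; right; exact h4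
  -- squares
  have hqz'sq : (q * z') * (q * z') = 1 := by
    calc (q * z') * (q * z') = (q * z') * q * z' := by group
      _ = (z * z' * q) * q * z' := by rw [hqz2]
      _ = z * z' * (q * q) * z' := by group
      _ = z * (z' * z) * z' := by rw [hqq]; group
      _ = (z * z) * (z' * z') := by rw [← hzz']; group
      _ = 1 := by rw [h.zz, z'2, one_mul]
  have hqzz'sq : (q * (z' * z)) * (q * (z' * z)) = 1 := by
    calc (q * (z' * z)) * (q * (z' * z)) = (q * z') * (z * q) * z' * z := by group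
      _ = (q * z') * (q * z) * z' * z := by rw [hzq]
      _ = (q * z') * q * (z * z') * z := by group
      _ = (q * z') * q * (z' * z) * z := by rw [hzz']
      _ = ((q * z') * (q * z')) * (z * z) := by group
      _ = 1 := by rw [hqz'sq, h.zz, one_mul]
  have hqzsq : (q * z) * (q * z) = z := by
    calc (q * z) * (q * z) = q * (z * q) * z := by group
      _ = q * (q * z) * z := by rw [hzq]
      _ = (q * q) * (z * z) := by group
      _ = z := by rw [hqq, h.zz, mul_one]
  have hAsq : ∀ y, (y = 1 ∨ y = z ∨ y = z' ∨ y = z' * z) → y * y = 1 := by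
    rintro y (rfl | rfl | rfl | rfl)
    · simp
    · exact h.zz
    · exact z'2
    · calc z' * z * (z' * z) = z' * (z * z') * z := by group
        _ = z' * (z' * z) * z := by rw [hzz']
        _ = (z' * z') * (z * z) := by group
        _ = 1 := by rw [z'2, h.zz, one_mul]
  have hsqz : ∀ y ∈ Q, y * y = z → y = q ∨ y = q * z := by
    intro y hy hyy
    rcases hcov y hy with h1 | h1 | h1 | h1 | h1
    · exact absurd ((hAsq y h1).symm.trans hyy).symm h.z1
    · exact Or.inl h1
    · exact Or.inr h1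
    · rw [h1, hqz'sq] at hyy
      exact absurd hyy.symm h.z1
    · rw [h1, hqzz'sq] at hyy
      exact absurd hyy.symm h.z1
  intro c hc
  have hczc : c * z * c⁻¹ = z := by rw [hc]; group
  -- `d = c²` commutes with `q`
  set d := c * c with hd
  have hdz : d * z = z * d := by
    calc c * c * z = c * (c * z) := by group
      _ = c * (z * c) := by rw [hc]
      _ = (c * z) * c := by group
      _ = z * (c * c) := by rw [hc]; group
  have hdq : d * q = q * d := by
    have h1 : c * q * c⁻¹ * (c * q * c⁻¹) = z := by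
      calc c * q * c⁻¹ * (c * q * c⁻¹) = c * (q * q) * c⁻¹ := by group
        _ = z := by rw [hqq, hczc]
    have h2 : d * q * d⁻¹ = q := by
      rcases hsqz _ (h.norm c hc q hq) h1 with h3 | h3
      · calc d * q * d⁻¹ = c * (c * q * c⁻¹) * c⁻¹ := by rw [hd]; group
          _ = q := by rw [h3, h3]
      · calc d * q * d⁻¹ = c * (c * q * c⁻¹) * c⁻¹ := by rw [hd]; group
          _ = c * (q * z) * c⁻¹ := by rw [h3]
          _ = (c * q * c⁻¹) * (c * z * c⁻¹) := by group
          _ = q * (z * z) := by rw [h3, hczc]; group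
          _ = q := by rw [h.zz, mul_one]
    exact mul_inv_eq_iff_eq_mul.1 h2
  -- `d z' d⁻¹ = u z'`
  obtain ⟨u, hu, hdu, hu4⟩ : ∃ u, d * z' * d⁻¹ = u * z' ∧ d * u = u * d ∧ u ^ 4 = 1 := by
    have h1 : (d * z' * d⁻¹) * (d * z' * d⁻¹) = 1 := by
      calc (d * z' * d⁻¹) * (d * z' * d⁻¹) = d * (z' * z') * d⁻¹ := by group
        _ = 1 := by rw [z'2]; group
    have hp4 : ∀ w : G, w ^ 4 = (w * w) * (w * w) := by
      intro w
      rw [show (4 : ℕ) = 2 + 2 from rfl, pow_add, pow_two]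
    have hq4 : q ^ 4 = 1 := by rw [hp4, hqq, h.zz]
    rcases hcov _ (h.norm d hdz z' hz') with (h2 | h2 | h2 | h2) | (h2 | h2 | h2 | h2)
    · exfalso
      apply z'1
      have h3 := conj_eq_one_iff.1 h2
      exact h3
    · exfalso
      apply hne
      calc z' = d⁻¹ * (d * z' * d⁻¹) * d := by group
        _ = d⁻¹ * (z * d) := by rw [h2]; group
        _ = d⁻¹ * (d * z) := by rw [hdz]
        _ = z := by group
    · exact ⟨1, by rw [h2, one_mul], by simp, by simp⟩
    · exact ⟨z, by rw [h2, hzz'], hdz, by rw [hp4, h.zz, one_mul]⟩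
    · rw [h2, hqq] at h1
      exact absurd h1 h.z1
    · rw [h2, hqzsq] at h1
      exact absurd h1 h.z1
    · exact ⟨q, h2, hdq, hq4⟩
    · refine ⟨q * z, by rw [h2, ← hzz']; group, ?_, ?_⟩
      · calc d * (q * z) = (d * q) * z := by group
          _ = q * (d * z) := by rw [hdq]; group
          _ = q * z * d := by rw [hdz]; group
      · rw [hp4, hqzsq, h.zz]
  have hpow : ∀ n : ℕ, d ^ n * z' * (d ^ n)⁻¹ = u ^ n * z' := by
    intro n
    induction n with
    | zero => simp
    | succ n ih =>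
      have h1 : d * u ^ n * d⁻¹ = u ^ n := by
        have h2 : Commute d u := hdu
        have h3 := (h2.pow_right n).eq
        rw [h3]; group
      calc d ^ (n + 1) * z' * (d ^ (n + 1))⁻¹ = d * (d ^ n * z' * (d ^ n)⁻¹) * d⁻¹ := by
            rw [pow_succ']; group
        _ = (d * u ^ n * d⁻¹) * (d * z' * d⁻¹) := by rw [ih]; group
        _ = u ^ n * (u * z') := by rw [h1, hu]
        _ = u ^ (n + 1) * z' := by rw [pow_succ]; group
  have he : d ^ 4 * z' = z' * d ^ 4 := by
    have h1 := hpow 4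
    rw [hu4, one_mul] at h1
    exact mul_inv_eq_iff_eq_mul.1 h1
  have heq : d ^ 4 * q = q * d ^ 4 := ((show Commute d q from hdq).pow_left 4).eq
  have hez : d ^ 4 * z = z * d ^ 4 := ((show Commute d z from hdz).pow_left 4).eq
  have hedQ : d ^ 4 ∈ Q := by
    apply h.self _ hez
    have c1 : Commute (d ^ 4) z' := he
    have c2 : Commute (d ^ 4) q := heq
    have c3 : Commute (d ^ 4) z := hez
    intro y hy
    change Commute (d ^ 4) y
    rcases hcov y hy with (rfl | rfl | rfl | rfl) | (rfl | rfl | rfl | rfl)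
    · exact Commute.one_right _
    · exact c3
    · exact c1
    · exact c1.mul_right c3
    · exact c2
    · exact c2.mul_right c3
    · exact c2.mul_right c1
    · exact c2.mul_right (c1.mul_right c3)
  have h1 : (d ^ 4 * d ^ 4) * (d ^ 4 * d ^ 4) = 1 := by
    rcases h.sq _ hedQ with h2 | h2
    · rw [h2, one_mul]
    · rw [h2, h.zz]
  have hd2 : d = c ^ 2 := by rw [hd, pow_two]
  rw [hd2, ← pow_mul, ← pow_add, ← pow_add] at h1
  exact h1

/-- `z ∈ Q'`. -/
theorem SD.mem [Finite G] (h : SD z Q) (h' : SD z' Q') (hQ' : IsPGroup 2 Q') (hz' : z' ∈ Q)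
    (hne : z' ≠ z)
    (hconj : ∀ k, k * z * k⁻¹ = z' → ∀ x ∈ Q, k * x * k⁻¹ ∈ Q')
    (htr : (∀ c, c * z = z * c → c ∈ Q) → ∀ c, c * z' = z' * c → c ∈ Q') : z ∈ Q' := by
  by_contra hz
  by_cases hA : ∀ a ∈ Q, a * z' = z' * a → a * a = 1
  · have h1 := h.step8 hz' h'.zz h'.z1 hne hA
    exact hz (htr (h.two h1) z (h.cz z' hz').symm)
  · push Not at hA
    obtain ⟨a, ha, haz, haa⟩ := hA
    rcases h.sq a ha with h1 | h1
    · exact haa h1
    · exact h.step7 h' hQ' hz' hne hz hconj ha haz h1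

end Cfsg.Agent.H13
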